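import Cfsg.Agent.M22Trans.Prim
import Cfsg.Agent.M22Trans.W.Iso
import Cfsg.Agent.TTLink.M23Transport
import Cfsg.Agent.SporB.FiType.TypeTwo

/-!
The group is the presented Fischer group, and of type M(22).
-/

set_option autoImplicit false
set_option maxRecDepth 100000

namespace Cfsg.Agent.M22Trans

open Cfsg.Agent.SporB Cfsg.Agent.SporB.FischerU Cfsg.Agent.CosetCert Cfsg.Agent.CosetEnum

variable {G : Type*} [Group G] [Finite G] {D : Set G}

namespace Setting

variable (S : Setting D)
include S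

theorem iso {d : G} (hd : d ∈ D) :
    Cfsg.Spor.IsoFi22 G ∧ Cfsg.IsOfTypeM22 G D := by
  obtain ⟨e, he⟩ := W.iso_fi22 (S.prim hd)
  have hA : transA = PresentedGroup.of Cfsg.Spor.Fi22.Gen.a := by
    rw [transA, val]
    simp [pval, PresentedGroup.of]
    rfl
  refine ⟨⟨e.symm⟩, TTLink.typeM22_equiv e ?_ FiType.fi22_type⟩
  rw [hA]
  exact he

end Setting

end Cfsg.Agent.M22Trans
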