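import Cfsg.Agent.M22Trans.Main
import Cfsg.Agent.IsoPSU42.Main
import Cfsg.Prelude.Def_FischerSpaces

/-!
The setting from the hypothesis on the centraliser of one involution.
-/

set_option autoImplicit false
set_option maxHeartbeats 1000000

namespace Cfsg.Agent.M22Trans

open Cfsg.Agent.TTLink Cfsg.Agent.ThreeTransp45 Cfsg.Agent.U62Plane

variable {G : Type*} [Group G] [Finite G] {d : G}

/-- The images of the conjugates in the double cover. -/
theorem cov_facts (K : Cov ↥(Subgroup.centralizer ({d} : Set G))) (hKd : (K.d : G) = d)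
    (hnwc : ∃ g : G, g * d * g⁻¹ ∈ Subgroup.centralizer ({d} : Set G) ∧ g * d * g⁻¹ ≠ d) :
    (∀ c : ↥(Subgroup.centralizer ({d} : Set G)), IsConj d (c : G) → (c : G) ≠ d → K.π c ∈ T) ∧
      (∀ q ∈ T, ∃ c : ↥(Subgroup.centralizer ({d} : Set G)), IsConj d (c : G) ∧ (c : G) ≠ d ∧
        K.π c = q) ∧
      ∀ c c' : ↥(Subgroup.centralizer ({d} : Set G)), IsConj d (c : G) → IsConj d (c' : G) →
        K.π c ∈ T → K.π c = K.π c' → c = c' := by
  classical
  let C := Subgroup.centralizer ({d} : Set G)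
  set O := {x : G | x ∈ bigA K ∧ IsConj d x}
  set OC := {y : ↥C | (y : G) ∈ O}
  have hd1 : d ≠ 1 := fun e => K.hd1 (Subtype.ext (hKd.trans e))
  have hO1 : (1 : G) ∉ O := fun h => hd1 (isConj_one_left.1 h.2)
  have hOA : OC ⊆ K.A := fun y hy => by
    obtain ⟨u, hu, he⟩ := (mem_bigA K).1 hy.1
    rwa [show y = u from Subtype.ext he.symm]
  have hON : ∀ g ∈ K.N, ∀ y ∈ OC, g * y * g⁻¹ ∈ OC := fun g hg y hy =>
    ⟨(normalizer_iff K).1 ((N_iff K).1 hg) _ hy.1, hy.2.trans (isConj_iff.2 ⟨(g : G), rfl⟩)⟩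
  have hncard : OC.ncard = O.ncard := by
    refine Set.ncard_congr (fun y _ => (y : G)) (fun y hy => hy) (fun a b _ _ h => Subtype.ext h) ?_
    intro x hx
    obtain ⟨u, _, rfl⟩ := (mem_bigA K).1 hx.1
    exact ⟨u, hx, rfl⟩
  have hdOC : K.d ∈ OC := ⟨by rw [hKd]; exact d_mem K hKd, by rw [hKd]⟩
  have hf0 : (K.fib OC 0).ncard = 1 := by
    rw [show K.fib OC 0 = {K.d} from Set.eq_singleton_iff_unique_mem.2
      ⟨⟨hdOC, by rw [K.pi_d, eU_zero]⟩, fun y hy => ?_⟩, Set.ncard_singleton]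
    rcases (K.hker y).1 (hy.2.trans eU_zero) with rfl | rfl
    · exact absurd (show (1 : G) ∈ O from hy.1) hO1
    · rfl
  have hcount := K.count hOA hON
  rw [hf0, hncard, ncard_conj K hKd hnwc] at hcount
  have hla := K.ncard_fib_le OC (Cov.orbN 0)
  have habc : (K.fib OC (Cov.orbN 0)).ncard = 1 ∧ (K.fib OC (Cov.orbN 21)).ncard = 0 ∧
      (K.fib OC (Cov.orbN 231)).ncard = 0 := by omega
  have hpts : ∀ i < 21, ((Cov.orbN i : Fin 512) : ℕ) ∈ pts := by decide +kernel
  have hlev : ∀ y ∈ OC, (y : G) ≠ d → ∃ i < 21, K.π y = eU (Cov.orbN i) := by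
    intro y hy hyd
    obtain ⟨n, hn⟩ := K.mem_A.1 (hOA hy)
    have hn' : n ∈ insert (0 : Fin 512) ((Finset.range 511).image Cov.orbN) := by
      rw [← Cov.univ_eq]; exact Finset.mem_univ n
    rcases Finset.mem_insert.1 hn' with rfl | hn'
    · rcases (K.hker y).1 (hn.symm.trans eU_zero) with rfl | rfl
      · exact absurd (show (1 : G) ∈ O from hy) hO1
      · exact absurd hKd hyd
    · obtain ⟨i, hi, rfl⟩ := Finset.mem_image.1 hn'
      rw [Finset.mem_range] at hi
      by_contra hno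
      push Not at hno
      have h0 : (K.fib OC (Cov.orbN i)).ncard = 0 := by
        rw [K.fib_orb hON hi]
        split_ifs with h1 h2
        · exact absurd hn.symm (hno i h1)
        · exact habc.2.1
        · exact habc.2.2
      have : 0 < (K.fib OC (Cov.orbN i)).ncard := (Set.ncard_pos (Set.toFinite _)).2 ⟨y, hy, hn.symm⟩
      omega
  have hne : ∀ c : ↥C, K.π c ∈ T → (c : G) ≠ d := fun c hc e => T_ne_one hc (by
    rw [show c = K.d from Subtype.ext (e.trans hKd.symm), K.pi_d])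
  have hcentral : ∀ g : ↥C, (g : G) * d * (g : G)⁻¹ = d := fun g =>
    mul_inv_eq_iff_eq_mul.2 (Subgroup.mem_centralizer_singleton_iff.1 g.2)
  obtain ⟨t, ht⟩ := Set.ncard_eq_one.1 habc.1
  have htm : t ∈ K.fib OC (Cov.orbN 0) := ht ▸ Set.mem_singleton t
  have hT0 : eU (Cov.orbN 0) ∈ T := eU_pts (hpts 0 (by norm_num))
  refine ⟨fun c hc hcd => ?_, fun q hq => ?_, fun c c' hc hc' hT e => ?_⟩
  · have hsq : c * c = 1 := by
      obtain ⟨g, hg⟩ := isConj_iff.1 hc
      refine Subtype.ext ?_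
      show (c : G) * c = 1
      rw [← hg, show g * d * g⁻¹ * (g * d * g⁻¹) = g * (d * d) * g⁻¹ by group, ← hKd,
        show (K.d : G) * K.d = 1 from congrArg Subtype.val K.hd]
      group
    obtain ⟨h, hh⟩ := K.exists_conj_A hsq
    have hy : h * c * h⁻¹ ∈ OC :=
      ⟨(mem_bigA K).2 ⟨_, hh, rfl⟩, hc.trans (isConj_iff.2 ⟨(h : G), rfl⟩)⟩
    obtain ⟨i, hi, e⟩ := hlev _ hy fun e => hcd (by
      have e' : (h : G) * c * (h : G)⁻¹ = (h : G) * d * (h : G)⁻¹ := by rw [hcentral]; exact e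
      exact mul_left_cancel (mul_right_cancel e'))
    have h' := T_data.inv' (K.π h)⁻¹ _ (eU_pts (hpts i hi))
    rw [← e, map_mul, map_mul, map_inv] at h'
    change cj (K.π h)⁻¹ (cj (K.π h) (K.π c)) ∈ T at h'
    rwa [cj_inv_cj] at h'
  · obtain ⟨g₀, hg₀⟩ := allTT_cl hF4 _ hT0 q hq
    obtain ⟨g, rfl⟩ := K.surj g₀
    have hπ : K.π (g * t * g⁻¹) = q := by rw [map_mul, map_mul, map_inv, htm.2]; exact hg₀
    exact ⟨g * t * g⁻¹, htm.1.2.trans (isConj_iff.2 ⟨(g : G), rfl⟩), hne _ (hπ ▸ hq), hπ⟩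
  · obtain ⟨g₀, hg₀⟩ := allTT_cl hF4 _ hT _ hT0
    obtain ⟨g, rfl⟩ := K.surj g₀
    have hmem : ∀ y : ↥C, IsConj d (y : G) → K.π y = K.π c →
        g * y * g⁻¹ ∈ K.fib OC (Cov.orbN 0) := by
      intro y hy he
      have hπ : K.π (g * y * g⁻¹) = eU (Cov.orbN 0) := by rw [map_mul, map_mul, map_inv, he]; exact hg₀
      refine ⟨⟨(mem_bigA K).2 ⟨_, ?_, rfl⟩, hy.trans (isConj_iff.2 ⟨(g : G), rfl⟩)⟩, hπ⟩
      exact K.mem_A.2 ⟨_, hπ.symm⟩
    have e1 : g * c * g⁻¹ = t := Set.mem_singleton_iff.1 (ht ▸ hmem c hc rfl)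
    have e2 : g * c' * g⁻¹ = t := Set.mem_singleton_iff.1 (ht ▸ hmem c' hc' e.symm)
    exact mul_left_cancel (mul_right_cancel (e1.trans e2.symm))

theorem setting_of_cov (K : Cov ↥(Subgroup.centralizer ({d} : Set G))) (hKd : (K.d : G) = d)
    (hnwc : ∃ g : G, g * d * g⁻¹ ∈ Subgroup.centralizer ({d} : Set G) ∧ g * d * g⁻¹ ≠ d) :
    Setting (conjugatesOf d) := by
  obtain ⟨h1, h2, h3⟩ := cov_facts K hKd hnwc
  have hd2 : d * d = 1 := by rw [← hKd]; exact congrArg Subtype.val K.hd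
  have hd1 : d ≠ 1 := fun e => K.hd1 (Subtype.ext (hKd.trans e))
  have hinv : ∀ g, ∀ x ∈ conjugatesOf d, cj g x ∈ conjugatesOf d := fun g x hx =>
    IsConj.trans (b := x) hx (isConj_iff.2 ⟨g, rfl⟩)
  refine ⟨fun a ha => ?_, fun h => hd1 (isConj_one_left.1 h), hinv, fun a ha b hb => ?_, fun a ha => ?_⟩
  · obtain ⟨g, rfl⟩ := isConj_iff.1 ha
    rw [show g * d * g⁻¹ * (g * d * g⁻¹) = g * (d * d) * g⁻¹ by group, hd2]
    group
  · exact isConj_iff.1 ((show IsConj d a from ha).symm.trans hb)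
  obtain ⟨g, hg⟩ := isConj_iff.1 ha
  have hag : cj g⁻¹ a = d := by rw [← hg]; exact cj_inv_cj g d
  have hga : cj g d = a := hg
  let e : ↥(Subgroup.centralizer ({a} : Set G)) ≃* ↥(Subgroup.centralizer ({d} : Set G)) :=
    { toFun := fun x => ⟨cj g⁻¹ x, Subgroup.mem_centralizer_singleton_iff.2 (by
        have h := (cj_commute_iff g⁻¹ (x : G) a).2 (Subgroup.mem_centralizer_singleton_iff.1 x.2)
        rw [hag] at h
        exact h.eq)⟩
      invFun := fun x => ⟨cj g x, Subgroup.mem_centralizer_singleton_iff.2 (by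
        have h := (cj_commute_iff g (x : G) d).2 (Subgroup.mem_centralizer_singleton_iff.1 x.2)
        rw [hga] at h
        exact h.eq)⟩
      left_inv := fun x => Subtype.ext (cj_cj_inv g _)
      right_inv := fun x => Subtype.ext (cj_inv_cj g _)
      map_mul' := fun x y => Subtype.ext (cj_map_mul _ _ _) }
  have hperf : commutator ↥(Subgroup.centralizer ({a} : Set G)) = ⊤ := by
    have := congrArg (Subgroup.map e.symm.toMonoidHom) K.perf
    rwa [commutator_def, Subgroup.map_commutator,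
      Subgroup.map_top_of_surjective _ e.symm.surjective, ← commutator_def] at this
  have hel : ∀ c : ↥(Subgroup.centralizer ({a} : Set G)), (c : G) ∈ link (conjugatesOf d) a →
      IsConj d ((e c : ↥(Subgroup.centralizer ({d} : Set G))) : G) ∧ ((e c : _) : G) ≠ d := fun c hc =>
    ⟨hinv g⁻¹ _ hc.1, fun h => hc.2.1 (cj_injective g⁻¹ (h.trans hag.symm))⟩
  refine ⟨⟨hperf, K.π.comp e.toMonoidHom, K.surj.comp e.surjective, fun c => ?_, ?_, ?_, ?_⟩⟩
  · show K.π (e c) = 1 ↔ _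
    rw [K.hker]
    refine or_congr ⟨fun h => ?_, fun h => Subtype.ext ?_⟩ ⟨fun h => ?_, fun h => Subtype.ext ?_⟩
    · have h' : cj g⁻¹ (c : G) = 1 := congrArg Subtype.val h
      rw [← cj_cj_inv g (c : G), h']; simp [cj]
    · show cj g⁻¹ (c : G) = 1
      rw [h]; simp [cj]
    · have h' : cj g⁻¹ (c : G) = (K.d : G) := congrArg Subtype.val h
      rw [← cj_cj_inv g (c : G), h', hKd, hga]
    · show cj g⁻¹ (c : G) = (K.d : G)
      rw [h, hag, hKd]
  · ext q
    constructor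
    · rintro ⟨c, hc, rfl⟩
      exact h1 _ (hel c hc).1 (hel c hc).2
    · intro hq
      obtain ⟨c, hc, hcd, rfl⟩ := h2 q hq
      refine ⟨e.symm c, ⟨hinv g _ hc, fun h => hcd (cj_injective g (h.trans hga.symm)), ?_⟩,
        by simp⟩
      exact (Subgroup.mem_centralizer_singleton_iff.1 (e.symm c).2).symm
  · intro c hc c' hc' h
    exact e.injective (h3 _ _ (hel c hc).1 (hel c' hc').1 (h1 _ (hel c hc).1 (hel c hc).2) h)
  · intro k c hc hcom
    refine (cj_eq_self_iff (k : G) (c : G)).1 (congrArg Subtype.val (?_ : k * c * k⁻¹ = c))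
    have hc' : ((k * c * k⁻¹ : ↥(Subgroup.centralizer ({a} : Set G))) : G) ∈
        link (conjugatesOf d) a :=
      ⟨hinv (k : G) _ hc.1, fun h => hc.2.1 (cj_injective (k : G) (h.trans
        ((cj_eq_self_iff (k : G) a).2 (Subgroup.mem_centralizer_singleton_iff.1 k.2)).symm)),
        (Subgroup.mem_centralizer_singleton_iff.1 (k * c * k⁻¹).2).symm⟩
    refine e.injective (h3 _ _ (hel _ hc').1 (hel c hc).1 (h1 _ (hel _ hc').1 (hel _ hc').2) ?_)
    show (K.π.comp e.toMonoidHom) (k * c * k⁻¹) = (K.π.comp e.toMonoidHom) c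
    rw [map_mul, map_mul, map_inv]
    exact mul_inv_eq_iff_eq_mul.2 hcom.eq

/-- The setting from the statement's hypotheses. -/
theorem setting_of_hyp (d : G) (hd : orderOf d = 2)
    (hq : Cfsg.IsQuasisimple ↥(Subgroup.centralizer ({d} : Set G)))
    [((Subgroup.zpowers d).subgroupOf (Subgroup.centralizer ({d} : Set G))).Normal]
    (K : Type) [Field K] [Fintype K] (hK : Fintype.card K = 4)
    (e : ↥(Subgroup.centralizer ({d} : Set G)) ⧸
      (Subgroup.zpowers d).subgroupOf (Subgroup.centralizer ({d} : Set G)) ≃* Cfsg.PSU 6 K 2)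
    (hnwc : ∃ g : G, g * d * g⁻¹ ∈ Subgroup.centralizer ({d} : Set G) ∧ g * d * g⁻¹ ≠ d) :
    Setting (conjugatesOf d) := by
  let C := Subgroup.centralizer ({d} : Set G)
  obtain ⟨eF⟩ := GFour25.exists_ringEquiv hK
  obtain ⟨eS⟩ := IsoPSU42.nonempty_su_equiv 6 2 eF.symm
  obtain ⟨eP⟩ := IsoPSU42.centerQuot_congr eS
  have hd2 : d * d = 1 := by rw [← pow_two, ← hd]; exact pow_orderOf_eq_one d
  have hd1 : d ≠ 1 := fun h => by rw [h, orderOf_one] at hd; norm_num at hd
  have hdC : d ∈ C := Subgroup.mem_centralizer_singleton_iff.2 rfl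
  let q : ↥C →* U62Plane.PU :=
    (e.trans eP).toMonoidHom.comp (QuotientGroup.mk' ((Subgroup.zpowers d).subgroupOf C))
  let K0 : Cov ↥C :=
    { π := q
      surj := (e.trans eP).surjective.comp (QuotientGroup.mk'_surjective _)
      d := ⟨d, hdC⟩
      hd := Subtype.ext hd2
      hd1 := fun h => hd1 (congrArg Subtype.val h)
      hdc := fun c => Subtype.ext (Subgroup.mem_centralizer_singleton_iff.1 c.2).symm
      hker := fun c => by
        constructor
        · intro h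
          have h1 : (QuotientGroup.mk c : ↥C ⧸ (Subgroup.zpowers d).subgroupOf C) = 1 :=
            (e.trans eP).injective (h.trans (map_one _).symm)
          rw [QuotientGroup.eq_one_iff, Subgroup.mem_subgroupOf] at h1
          obtain ⟨k, hk⟩ := mem_powers_iff_mem_zpowers.2 h1
          have hk' : (c : G) = d ^ (k % 2) := by rw [← hd, pow_mod_orderOf]; exact hk.symm
          rcases Nat.mod_two_eq_zero_or_one k with h0 | h0 <;> rw [h0] at hk'
          · exact Or.inl (Subtype.ext (by simpa using hk'))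
          · exact Or.inr (Subtype.ext (by simpa using hk'))
        · rintro (rfl | rfl)
          · exact map_one _
          · show (e.trans eP) (QuotientGroup.mk (⟨d, hdC⟩ : ↥C)) = 1
            rw [(QuotientGroup.eq_one_iff (⟨d, hdC⟩ : ↥C)).2
                (Subgroup.mem_subgroupOf.2 (Subgroup.mem_zpowers d)), map_one]
      perf := hq.1.commutator_eq_top }
  exact setting_of_cov K0 rfl hnwc

theorem class_of_setting {d : G} (S : Setting (conjugatesOf d)) :
    Cfsg.IsThreeTranspositionClass (conjugatesOf d) :=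
  ⟨S.set_three, ⟨d, mem_conjugatesOf_self, rfl⟩, S.closure_top mem_conjugatesOf_self⟩

end Cfsg.Agent.M22Trans
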