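import Cfsg.Agent.M22Trans.Pair

/-!
The class is a class of 3-transpositions and generates.
-/

set_option autoImplicit false
set_option maxHeartbeats 1000000

namespace Cfsg.Agent.M22Trans

open Cfsg.Agent.TTLink Cfsg.Agent.ThreeTransp45 Cfsg.Agent.SporB

variable {G : Type*} [Group G] {D : Set G}

namespace Setting

variable [Finite G] (S : Setting D)
include S

theorem ord_two {a : G} (ha : a ∈ D) : orderOf a = 2 :=
  Invol.orderOf_eq_two (S.sq a ha) (S.ne_one ha)

theorem odd_of_not_commute {a g : G} (ha : a ∈ D) (hg : g ∈ D) (hn : ¬ Commute a g) :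
    Odd (orderOf (a * g)) := by
  by_contra ho
  rw [Nat.not_odd_iff_even] at ho
  obtain ⟨hza, hzg⟩ := Invol.commute_pow_half (S.ord_two ha) (S.ord_two hg) ho
  have hz2 := Invol.pow_half_eq_two (orderOf_pos (a * g)) ho
  set z := (a * g) ^ (orderOf (a * g) / 2) with hz
  have hy : a * z ∈ D := by
    rw [hz, ← zpow_natCast]
    rcases Int.even_or_odd ((orderOf (a * g) / 2 : ℕ) : ℤ) with ⟨m, hm⟩ | ⟨m, hm⟩
    · rw [hm, ← two_mul, ← Invol.conj_left_zpow (S.ord_two ha) (S.ord_two hg)]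
      exact S.inv' _ a ha
    · rw [hm, ← Invol.conj_right_zpow (S.ord_two ha) (S.ord_two hg)]
      exact S.inv' _ g hg
  have hl : a * z ∈ link D a := ⟨hy, fun e => by
    have hz1 : z = 1 := mul_eq_left.1 e
    rw [hz1, orderOf_one] at hz2; norm_num at hz2, (Commute.refl a).mul_right hza.symm⟩
  exact hn (S.stab_member ha hl hg (by rw [← mul_assoc, S.sq a ha, one_mul]; exact hzg.symm)).1.symm

theorem move {a g : G} (ha : a ∈ D) (hg : g ∈ D) (hn : ¬ Commute a g) :
    ∃ h, h ∈ Subgroup.closure D ∧ cj h a = g ∧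
      ∀ z, Commute z a → Commute z g → Commute h z := by
  obtain ⟨h, hm, he⟩ := Invol.exists_conj_eq_of_odd (S.ord_two ha) (S.ord_two hg)
    (S.odd_of_not_commute ha hg hn)
  refine ⟨h, Subgroup.closure_mono (by rintro x (rfl | rfl) <;> assumption) hm, he, fun z hza hzg => ?_⟩
  have hle : Subgroup.closure ({a, g} : Set G) ≤ Subgroup.centralizer ({z} : Set G) := by
    rw [Subgroup.closure_le]
    rintro x (rfl | rfl) <;>
      exact Subgroup.mem_centralizer_singleton_iff.2 (by first | exact hza.symm.eq | exact hzg.symm.eq)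
  exact Subgroup.mem_centralizer_singleton_iff.1 (hle hm)

theorem link_nonempty {a : G} (ha : a ∈ D) : ∃ e, e ∈ link D a := by
  obtain ⟨-, ⟨q, hq, -⟩, -⟩ := UnitarySix.allTT_class hF4
  obtain ⟨e, he, -⟩ := S.exists_lift ha hq
  exact ⟨e, he⟩

/-- Two members with product of order above three. -/
def _root_.Cfsg.Agent.M22Trans.Far (D : Set G) (d f : G) : Prop :=
  d ∈ D ∧ f ∈ D ∧ ¬ Commute d f ∧ (d * f) ^ 3 ≠ 1

theorem no_common {d f : G} (h : Far D d f) {w : G} (hw : w ∈ link D d) : ¬ Commute f w := fun hc =>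
  h.2.2.2 (S.near_three hw.1 (link_symm h.1 hw)
    ⟨h.2.1, fun e => h.2.2.1 (by rw [e]; exact hw.2.2), hc.symm⟩ h.2.2.1)

theorem no_triple {d f : G} (h : Far D d f) {e x : G} (he : e ∈ link D d) (hx : x ∈ link D d)
    (hex : e ≠ x) (hc : Commute e x) (hfz : Commute f (d * e * x)) : False := by
  have hd := h.1
  have hf := h.2.1
  obtain ⟨q, hq⟩ := exists_tri (S.im_mem hd he) (S.im_mem hd hx)
    (fun e' => hex (S.im_inj hd he hx e')) (S.im_commute hd he.2.2.symm hx.2.2.symm hc)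
  obtain ⟨w, hw, rfl⟩ := S.exists_lift hd hq.hr
  have cwe : Commute w e := S.im_refl hd hw.2.2.symm he hq.cpr.symm
  have cwx : Commute w x := S.im_refl hd hw.2.2.symm hx hq.cqr.symm
  have hwe : w ≠ e := fun e' => hq.pr (by rw [e'])
  have hwx : w ≠ x := fun e' => hq.qr (by rw [e'])
  have hnw : ¬ Commute f w := S.no_common h hw
  obtain ⟨h1, -, e1, c1⟩ := S.move hd hf h.2.2.1
  obtain ⟨h2, -, e2, c2⟩ := S.move hf hw.1 hnw
  set z := d * e * x with hz
  have czd : Commute z d := (((Commute.refl d).mul_left he.2.2.symm)).mul_left hx.2.2.symm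
  have czw : Commute z w := ((hw.2.2.mul_left cwe.symm)).mul_left cwx.symm
  have hg : Commute (h2 * h1) z := (c2 z hfz.symm czw).mul_left (c1 z czd hfz.symm)
  have eg : cj (h2 * h1) d = w := by rw [cj_mul, e1, e2]
  have he' := S.link_cj (g := h2 * h1) he
  have hx' := S.link_cj (g := h2 * h1) hx
  rw [eg] at he' hx'
  set e' := cj (h2 * h1) e
  set x' := cj (h2 * h1) x
  have hz' : z = w * e' * x' := by
    rw [← (cj_eq_self_iff _ z).2 hg, hz, cj_map_mul, cj_map_mul, eg]
  have hwl := hw.1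
  have ld : d ∈ link D w := link_symm hd hw
  have le' : e ∈ link D w := ⟨he.1, hwe.symm, cwe⟩
  have lx' : x ∈ link D w := ⟨hx.1, hwx.symm, cwx⟩
  have cd := ld.2.2.symm
  have ce := le'.2.2.symm
  have cx := lx'.2.2.symm
  have htri : Tri (S.im hwl d) (S.im hwl e) (S.im hwl x) := by
    refine ⟨S.im_mem hwl ld, S.im_mem hwl le', S.im_mem hwl lx',
      fun e0 => he.2.1 (S.im_inj hwl ld le' e0).symm, fun e0 => hx.2.1 (S.im_inj hwl ld lx' e0).symm,
      fun e0 => hex (S.im_inj hwl le' lx' e0), S.im_commute hwl cd ce he.2.2,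
      S.im_commute hwl cd cx hx.2.2, S.im_commute hwl ce cx hc, fun hon => hq.off ?_⟩
    have n1 : e ∈ near D w d := ⟨le', he⟩
    have n2 : x ∈ near D w d := ⟨lx', hx⟩
    obtain ⟨-, hxe, hall⟩ := (S.cls_iff hwl ld n1 n2).2 hon
    have n1' : e ∈ near D d w := ⟨he, le'⟩
    have n2' : x ∈ near D d w := ⟨hx, lx'⟩
    have h3 := (S.cls_iff hd hw n1' n2').1 ⟨n2', hxe, fun y hy a b c => hall y hy b a c⟩
    exact onLine_swap hq.hp hq.hr hq.pr hq.cpr (onLine_comm h3) hq.pq.symm
  have c' : Commute e' x' := (cj_commute_iff _ e x).2 hc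
  refine htri.ne_pair (S.im_mem hwl he') (S.im_mem hwl hx')
    (fun e0 => hex (cj_injective _ (S.im_inj hwl he' hx' e0)))
    (S.im_commute hwl he'.2.2.symm hx'.2.2.symm c') ?_
  have h' := congrArg (S.im hwl) (hz.symm.trans hz')
  rw [S.im_mul hwl (cd.mul_left ce) cx, S.im_mul hwl cd ce,
    S.im_mul hwl ((Commute.refl w).mul_left he'.2.2.symm) hx'.2.2.symm,
    S.im_mul hwl (Commute.refl w) he'.2.2.symm, S.im_self, one_mul] at h'
  exact h'

theorem no_abc {d f : G} (h : Far D d f) {a b c : G} (ha : a ∈ link D d) (hb : b ∈ link D d)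
    (hc : c ∈ link D d) (ht : Tri (S.im h.1 a) (S.im h.1 b) (S.im h.1 c))
    (hfz : Commute f (a * b * c)) : False := by
  have hd := h.1
  have hf := h.2.1
  have cab := S.im_refl hd ha.2.2.symm hb ht.cpq
  have cac := S.im_refl hd ha.2.2.symm hc ht.cpr
  have cbc := S.im_refl hd hb.2.2.symm hc ht.cqr
  set z := a * b * c with hz
  have cza : Commute z a := (((Commute.refl a).mul_left cab.symm)).mul_left cac.symm
  have czd : Commute z d := (ha.2.2.symm.mul_left hb.2.2.symm).mul_left hc.2.2.symm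
  obtain ⟨h1, -, e1, c1⟩ := S.move ha.1 hf fun hc' => S.no_common h ha hc'.symm
  obtain ⟨h2, -, e2, c2⟩ := S.move hf hd fun hc' => h.2.2.1 hc'.symm
  have hg : Commute (h2 * h1) z := (c2 z hfz.symm czd).mul_left (c1 z cza hfz.symm)
  have eg : cj (h2 * h1) a = d := by rw [cj_mul, e1, e2]
  have lab : b ∈ link D a := ⟨hb.1, fun e => ht.pq (by rw [e]), cab⟩
  have lac : c ∈ link D a := ⟨hc.1, fun e => ht.pr (by rw [e]), cac⟩
  have hb' := S.link_cj (g := h2 * h1) lab
  have hc' := S.link_cj (g := h2 * h1) lac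
  rw [eg] at hb' hc'
  set b' := cj (h2 * h1) b
  set c' := cj (h2 * h1) c
  have hz' : z = d * b' * c' := by
    rw [← (cj_eq_self_iff _ z).2 hg, hz, cj_map_mul, cj_map_mul, eg]
  refine ht.ne_pair (S.im_mem hd hb') (S.im_mem hd hc')
    (fun e0 => ht.qr (congrArg (S.im hd) (cj_injective _ (S.im_inj hd hb' hc' e0))))
    (S.im_commute hd hb'.2.2.symm hc'.2.2.symm ((cj_commute_iff _ b c).2 cbc)) ?_
  have h' := congrArg (S.im hd) (hz.symm.trans hz')
  rw [S.im_mul hd (ha.2.2.symm.mul_left hb.2.2.symm) hc.2.2.symm,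
    S.im_mul hd ha.2.2.symm hb.2.2.symm,
    S.im_mul hd ((Commute.refl d).mul_left hb'.2.2.symm) hc'.2.2.symm,
    S.im_mul hd (Commute.refl d) hb'.2.2.symm, S.im_self, one_mul] at h'
  exact h'

omit S in
omit [Finite G] in
theorem mul_three_comm {a b c : G} (h1 : Commute a b) : a * b * c = b * a * c := by rw [h1.eq]

/-- A six through three members yields five at one of them. -/
theorem six_five {d f : G} (h : Far D d f) {a b c : G} (ha : a ∈ link D d) (hb : b ∈ link D d)
    (hc : c ∈ link D d) (ht : Tri (S.im h.1 a) (S.im h.1 b) (S.im h.1 c))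
    (hfz : Commute f (a * b * c * d)) {A : List P}
    (hA : A.Nodup ∧ A.length = 6 ∧ A.prod = 1 ∧ (∀ y ∈ A, y ∈ T) ∧ ∀ u ∈ A, ∀ v ∈ A, Commute u v)
    (hm : ∀ v ∈ [S.im h.1 a, S.im h.1 b, S.im h.1 c], v ∈ A) :
    ∃ m : List G, (∀ x ∈ m, x ∈ link D a ∧ x ∈ link D d) ∧ Fac T (m.map (S.im ha.1)) ∧ m.length = 5 ∧
      (m.map (S.im ha.1)).prod = 1 ∧ b ∈ m ∧ c ∈ m ∧
      ∀ y, y ∈ A ↔ y = S.im h.1 a ∨ ∃ x ∈ m, S.im h.1 x = y := by
  classical
  obtain ⟨hnd, hlen, hprod, hT, hcom⟩ := hA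
  have hd := h.1
  have h1 : S.im hd a ∈ A := hm _ (by simp)
  have h2 : S.im hd b ∈ A.erase (S.im hd a) := (List.mem_erase_of_ne ht.pq.symm).2 (hm _ (by simp))
  have h3 : S.im hd c ∈ (A.erase (S.im hd a)).erase (S.im hd b) :=
    (List.mem_erase_of_ne ht.qr.symm).2 ((List.mem_erase_of_ne ht.pr.symm).2 (hm _ (by simp)))
  set R := ((A.erase (S.im hd a)).erase (S.im hd b)).erase (S.im hd c) with hR
  have hperm : A.Perm (S.im hd a :: S.im hd b :: S.im hd c :: R) :=
    (List.perm_cons_erase h1).trans (((List.perm_cons_erase h2).trans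
      ((List.perm_cons_erase h3).cons _)).cons _)
  have hRl : R.length = 3 := by
    have := hperm.length_eq; simp [hlen] at this; omega
  obtain ⟨s₁, s₂, s₃, hRs⟩ := List.length_eq_three.1 hRl
  rw [hRs] at hperm
  have hnd' := hperm.nodup_iff.1 hnd
  have hT' : ∀ y ∈ [s₁, s₂, s₃], y ∈ A := fun y hy =>
    hperm.mem_iff.2 (by simp only [List.mem_cons] at hy ⊢; tauto)
  obtain ⟨a', la, ea⟩ := S.exists_lift hd (hT _ (hT' s₁ (by simp)))
  obtain ⟨b', lb, eb⟩ := S.exists_lift hd (hT _ (hT' s₂ (by simp)))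
  obtain ⟨c', lc, ec⟩ := S.exists_lift hd (hT _ (hT' s₃ (by simp)))
  set L : List G := [b, c, a', b', c'] with hL
  have hLd : ∀ x ∈ a :: L, x ∈ link D d := by simp [hL, ha, hb, hc, la, lb, lc]
  have hmap : (a :: L).map (S.im hd) = [S.im hd a, S.im hd b, S.im hd c, s₁, s₂, s₃] := by
    simp [hL, ea, eb, ec]
  have hperm' : A.Perm ((a :: L).map (S.im hd)) := hmap ▸ hperm
  have hLnd : (a :: L).Nodup := List.Nodup.of_map (S.im hd) (hperm'.nodup_iff.1 hnd)
  have hLc : ∀ x ∈ a :: L, ∀ y ∈ a :: L, Commute x y := fun x hx y hy =>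
    S.im_refl hd (hLd x hx).2.2.symm (hLd y hy) (hcom _ (hperm'.mem_iff.2 (List.mem_map_of_mem hx)) _
      (hperm'.mem_iff.2 (List.mem_map_of_mem hy)))
  have hLa : ∀ x ∈ L, x ∈ link D a ∧ x ∈ link D d := fun x hx =>
    ⟨⟨(hLd x (List.mem_cons_of_mem _ hx)).1, fun e => (List.nodup_cons.1 hLnd).1 (e ▸ hx),
      hLc a (List.mem_cons_self ..) x (List.mem_cons_of_mem _ hx)⟩, hLd x (List.mem_cons_of_mem _ hx)⟩
  -- the other three have the same product
  have hp6 := hperm.prod_eq' (List.pairwise_of_forall_mem_list fun u hu v hv => hcom u hu v hv)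
  rw [hprod] at hp6
  simp only [List.prod_cons, List.prod_nil, mul_one, ← mul_assoc] at hp6
  have hs : ∀ y ∈ [s₁, s₂, s₃], y ∈ T := fun y hy => hT y (hT' y hy)
  simp only [List.nodup_cons, List.mem_cons, List.not_mem_nil, or_false, not_or] at hnd'
  obtain ⟨-, -, -, ⟨n12, n13⟩, n23, -⟩ := hnd'
  have k12 := hcom _ (hT' s₁ (by simp)) _ (hT' s₂ (by simp))
  have k13 := hcom _ (hT' s₁ (by simp)) _ (hT' s₃ (by simp))
  have k23 := hcom _ (hT' s₂ (by simp)) _ (hT' s₃ (by simp))
  have hs3 : (s₁ * s₂ * s₃) * (s₁ * s₂ * s₃) = 1 := by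
    conv_lhs => arg 2; rw [← (k13.symm.mul_right k23.symm).eq]
    calc s₁ * s₂ * s₃ * (s₃ * (s₁ * s₂)) = s₁ * s₂ * (s₃ * s₃) * (s₁ * s₂) := by simp only [mul_assoc]
      _ = s₁ * (s₂ * s₁) * s₂ := by rw [T_sq (hs s₃ (by simp))]; simp only [mul_one, mul_assoc]
      _ = s₁ * s₁ * (s₂ * s₂) := by rw [← k12.eq]; simp only [mul_assoc]
      _ = 1 := by rw [T_sq (hs s₁ (by simp)), T_sq (hs s₂ (by simp)), mul_one]
  have heq : S.im hd a * S.im hd b * S.im hd c = s₁ * s₂ * s₃ := by
    have e : S.im hd a * S.im hd b * S.im hd c * (s₁ * s₂ * s₃) = 1 := by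
      rw [hp6]; simp only [mul_assoc]
    rw [mul_eq_one_iff_eq_inv.1 e]
    exact inv_eq_of_mul_eq_one_right hs3
  have htri : Tri (S.im hd a') (S.im hd b') (S.im hd c') := by
    rw [ea, eb, ec]
    refine ⟨hs _ (by simp), hs _ (by simp), hs _ (by simp), n12, n13, n23, k12, k13, k23, fun ho => ?_⟩
    obtain ⟨u, v, hu, hv, huv, huvc, e⟩ := line_product (hs _ (by simp)) (hs _ (by simp)) n12 k12 ho
      (Ne.symm n13) (Ne.symm n23)
    exact ht.ne_pair hu hv huv huvc (heq.trans e)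
  have him : S.im hd (a' * b' * c') = S.im hd (a * b * c * d) := by
    rw [S.im_mul hd (la.2.2.symm.mul_left lb.2.2.symm) lc.2.2.symm, S.im_mul hd la.2.2.symm lb.2.2.symm,
      S.im_mul hd ((ha.2.2.symm.mul_left hb.2.2.symm).mul_left hc.2.2.symm) (Commute.refl d),
      S.im_mul hd (ha.2.2.symm.mul_left hb.2.2.symm) hc.2.2.symm, S.im_mul hd ha.2.2.symm hb.2.2.symm,
      S.im_self, mul_one, ea, eb, ec, heq]
  have hz : a' * b' * c' = a * b * c := by
    have c1 : Commute (a' * b' * c') d := (la.2.2.symm.mul_left lb.2.2.symm).mul_left lc.2.2.symm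
    have c2 : Commute (a * b * c * d) d :=
      ((ha.2.2.symm.mul_left hb.2.2.symm).mul_left hc.2.2.symm).mul_left (Commute.refl d)
    have e1 : S.im hd ((a' * b' * c')⁻¹ * (a * b * c * d)) = 1 := by
      rw [S.im_mul hd c1.inv_left c2, S.im_inv hd c1, him, inv_mul_cancel]
    rcases (S.im_eq_one hd (c1.inv_left.mul_left c2)).1 e1 with e | e
    · exfalso
      exact S.no_abc h la lb lc htri ((inv_mul_eq_one.1 e) ▸ hfz)
    · rw [inv_mul_eq_iff_eq_mul] at e
      exact (mul_right_cancel e).symm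
  refine ⟨L, hLa, ⟨?_, ?_, ?_⟩, rfl, ?_, by simp [hL], by simp [hL], fun y => ?_⟩
  · exact (List.nodup_cons.1 hLnd).2.map_on fun x hx y hy e => S.im_inj ha.1 (hLa x hx).1 (hLa y hy).1 e
  · intro y hy
    obtain ⟨x, hx, rfl⟩ := List.mem_map.1 hy
    exact S.im_mem ha.1 (hLa x hx).1
  · intro y hy w hw
    obtain ⟨x, hx, rfl⟩ := List.mem_map.1 hy
    obtain ⟨x', hx', rfl⟩ := List.mem_map.1 hw
    exact S.im_commute ha.1 (hLa x hx).1.2.2.symm (hLa x' hx').1.2.2.symm
      (hLc x (List.mem_cons_of_mem _ hx) x' (List.mem_cons_of_mem _ hx'))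
  · have cb : ∀ x ∈ L, Commute x a := fun x hx => (hLa x hx).1.2.2.symm
    have c_b := cb b (by simp [hL])
    have c_c := cb c (by simp [hL])
    have c_a' := cb a' (by simp [hL])
    have c_b' := cb b' (by simp [hL])
    have c_c' := cb c' (by simp [hL])
    have e2 : S.im ha.1 (a' * b' * c') = S.im ha.1 (a * b * c) := congrArg _ hz
    rw [S.im_mul ha.1 (c_a'.mul_left c_b') c_c', S.im_mul ha.1 c_a' c_b',
      S.im_mul ha.1 ((Commute.refl a).mul_left c_b) c_c, S.im_mul ha.1 (Commute.refl a) c_b, S.im_self,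
      one_mul] at e2
    simp only [hL, List.map_cons, List.map_nil, List.prod_cons, List.prod_nil, mul_one]
    have hbb := T_sq (S.im_mem ha.1 (hLa b (by simp [hL])).1)
    have hcc := T_sq (S.im_mem ha.1 (hLa c (by simp [hL])).1)
    have hbc := (S.im_commute ha.1 c_b c_c
      (hLc b (by simp [hL]) c (by simp [hL]))).eq
    calc S.im ha.1 b * (S.im ha.1 c * (S.im ha.1 a' * (S.im ha.1 b' * S.im ha.1 c')))
        = S.im ha.1 b * (S.im ha.1 c * (S.im ha.1 a' * S.im ha.1 b' * S.im ha.1 c')) := by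
          simp only [mul_assoc]
      _ = S.im ha.1 b * (S.im ha.1 c * S.im ha.1 b) * S.im ha.1 c := by rw [e2]; simp only [mul_assoc]
      _ = S.im ha.1 b * S.im ha.1 b * (S.im ha.1 c * S.im ha.1 c) := by
          rw [← hbc]; simp only [mul_assoc]
      _ = 1 := by rw [hbb, hcc, mul_one]
  · rw [hperm'.mem_iff]
    simp only [List.map_cons, List.mem_cons, List.mem_map]

theorem no_abcd {d f : G} (h : Far D d f) {a b c : G} (ha : a ∈ link D d) (hb : b ∈ link D d)
    (hc : c ∈ link D d) (ht : Tri (S.im h.1 a) (S.im h.1 b) (S.im h.1 c))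
    (hfz : Commute f (a * b * c * d)) : False := by
  obtain ⟨A, B, hA, hB, hm, y, hyB, hyA⟩ := ht.two_sixes
  obtain ⟨m, m1, m2, m3, m4, mb, mc, mA⟩ := S.six_five h ha hb hc ht hfz hA fun v hv => (hm v hv).1
  obtain ⟨n, n1, n2, n3, n4, nb, nc, nB⟩ := S.six_five h ha hb hc ht hfz hB fun v hv => (hm v hv).2
  have hne : S.im ha.1 b ≠ S.im ha.1 c := fun e =>
    ht.qr (by rw [S.im_inj ha.1 (m1 b mb).1 (m1 c mc).1 e])
  rcases (nB y).1 hyB with e | ⟨x, hx, rfl⟩
  · exact hyA ((mA y).2 (Or.inl e))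
  obtain ⟨x', hx', e⟩ := List.mem_map.1 (UnitarySix.five_eq hF4 n2 m2 (by rw [List.length_map, n3])
    (by rw [List.length_map, m3]) n4 m4 (List.mem_map_of_mem nb) (List.mem_map_of_mem nc)
    (List.mem_map_of_mem mb) (List.mem_map_of_mem mc) hne _ (List.mem_map_of_mem hx))
  have : x' = x := S.im_inj ha.1 (m1 x' hx').1 (n1 x hx).1 e
  exact hyA ((mA _).2 (Or.inr ⟨x, this ▸ hx', rfl⟩))

/-- An involution commuting with both is impossible. -/
theorem no_fixed {d f : G} (h : Far D d f) {z : G} (hz : z * z = 1) (hz1 : z ≠ 1) (hzd : Commute z d)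
    (hzf : Commute z f) : False := by
  obtain ⟨hd, hf, hn, -⟩ := id h
  have two : ∀ {w : G}, Commute w d → S.im hd w = S.im hd z → z = w ∨ z = w * d := by
    intro w hw e
    have e1 : S.im hd (w⁻¹ * z) = 1 := by
      rw [S.im_mul hd hw.inv_left hzd, S.im_inv hd hw, e, inv_mul_cancel]
    rcases (S.im_eq_one hd (hw.inv_left.mul_left hzd)).1 e1 with e2 | e2
    · exact Or.inl (inv_mul_eq_one.1 e2).symm
    · exact Or.inr (inv_mul_eq_iff_eq_mul.1 e2)
  rcases classify (u := S.im hd z) (by rw [← S.im_mul hd hzd hzd, hz, S.im_one]) with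
    e | e | ⟨p, q, hp, hq, hpq, hc, e⟩ | ⟨p, q, r, ht, e⟩
  · rcases (S.im_eq_one hd hzd).1 e with e' | e'
    · exact hz1 e'
    · exact hn (e' ▸ hzf)
  · obtain ⟨t, ht, hte⟩ := S.exists_lift hd e
    rcases two ht.2.2.symm hte with e' | e'
    · exact S.no_common h ht (e' ▸ hzf.symm)
    · exact hn (S.stab_member hd ht hf (by rw [ht.2.2.eq, ← e']; exact hzf.symm)).1.symm
  · obtain ⟨s, hs, rfl⟩ := S.exists_lift hd hp
    obtain ⟨t, ht, rfl⟩ := S.exists_lift hd hq
    have hst : s ≠ t := fun e => hpq (by rw [e])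
    have cst := S.im_refl hd hs.2.2.symm ht hc
    rcases two (hs.2.2.symm.mul_left ht.2.2.symm) (by rw [S.im_mul hd hs.2.2.symm ht.2.2.symm, e])
      with e' | e'
    · exact S.no_common h hs (S.stab_member hs.1 ⟨ht.1, hst.symm, cst⟩ hf (e' ▸ hzf.symm)).1
    · refine S.no_triple h hs ht hst cst ?_
      rw [mul_assoc, (hs.2.2.mul_right ht.2.2).eq, ← e']; exact hzf.symm
  · obtain ⟨a, ha, rfl⟩ := S.exists_lift hd ht.hp
    obtain ⟨b, hb, rfl⟩ := S.exists_lift hd ht.hq
    obtain ⟨c, hc, rfl⟩ := S.exists_lift hd ht.hr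
    have cw : Commute (a * b * c) d := (ha.2.2.symm.mul_left hb.2.2.symm).mul_left hc.2.2.symm
    rcases two cw (by
      rw [S.im_mul hd (ha.2.2.symm.mul_left hb.2.2.symm) hc.2.2.symm,
        S.im_mul hd ha.2.2.symm hb.2.2.symm, e]) with e' | e'
    · exact S.no_abc h ha hb hc ht (e' ▸ hzf.symm)
    · exact S.no_abcd h ha hb hc ht (e' ▸ hzf.symm)

/-- The consequences of a neighbour. -/
theorem far_step {d f : G} (h : Far D d f) {e : G} (he : e ∈ link D d) :
    Far D e f ∧ ∃ a ∈ D, Commute a f ∧ (a * d) ^ 3 = 1 := by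
  obtain ⟨hd, hf, hn, hn3⟩ := id h
  set u := d * e with hu
  have hu2 : u * u = 1 := S.pair_sq hd he
  have hu1 : u ≠ 1 := S.two_ne_one he.1 he.2.1.symm
  have hou : orderOf u = 2 := Invol.orderOf_eq_two hu2 hu1
  have hof := S.ord_two hf
  have hev : Even (orderOf (u * f)) := Invol.even_of_not_isConj hou hof fun hc => by
    obtain ⟨g, hg⟩ := isConj_iff.1 hc
    refine S.two_not_mem hd he ?_
    have : u = cj g⁻¹ f := by rw [← hg]; exact (cj_inv_cj g u).symm
    show u ∈ D
    rw [this]; exact S.inv' _ f hf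
  obtain ⟨hzu, hzf⟩ := Invol.commute_pow_half hou hof hev
  have hz2 := Invol.pow_half_eq_two (orderOf_pos (u * f)) hev
  set z := (u * f) ^ (orderOf (u * f) / 2) with hz
  have hzz : z * z = 1 := by rw [← pow_two, ← hz2, pow_orderOf_eq_one]
  have hz1 : z ≠ 1 := fun e => by rw [e, orderOf_one] at hz2; norm_num at hz2
  have hzd : ¬ Commute z d := fun hc => S.no_fixed h hzz hz1 hc hzf
  obtain ⟨sd, se⟩ : cj z d = e ∧ cj z e = d := by
    rcases S.stab hd he hzu with ⟨h1, -⟩ | h2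
    · exact absurd ((cj_eq_self_iff z d).1 h1) hzd
    · exact h2
  have cuz : Commute (u * z) u := (Commute.refl u).mul_left hzu
  have noD : u * z ∉ D := fun hx => hzd (by
    have h1 := (S.stab_member hd he hx cuz).1
    have e1 : z = u * (u * z) := by rw [← mul_assoc, hu2, one_mul]
    rw [e1]; exact ((S.pair_comm hd he).1.symm).mul_left h1)
  obtain ⟨g, hg⟩ : ∃ g, cj g u = u * z := by
    rw [hz, ← zpow_natCast]
    rcases Int.even_or_odd ((orderOf (u * f) / 2 : ℕ) : ℤ) with ⟨m, hm⟩ | ⟨m, hm⟩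
    · exact ⟨_, by rw [hm, ← two_mul]; exact Invol.conj_left_zpow hou hof m⟩
    · exfalso
      refine noD ?_
      rw [hz, ← zpow_natCast, hm, ← Invol.conj_right_zpow hou hof]
      exact S.inv' _ f hf
  set g₁ := cj g d
  set g₂ := cj g e
  have hg1 : g₁ ∈ D := S.inv' g d hd
  have hg2 : g₂ ∈ link D g₁ := S.link_cj he
  have egg : g₁ * g₂ = u * z := by rw [← hg, hu, cj_map_mul]
  have sw : cj u g₁ = g₂ := by
    rcases S.stab hg1 hg2 (g := u) (by rw [egg]; exact cuz.symm) with ⟨h1, h2⟩ | h2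
    · exfalso
      have a1 := (S.stab_member hd he hg1 ((cj_eq_self_iff u g₁).1 h1).symm).1
      have a2 := (S.stab_member hd he hg2.1 ((cj_eq_self_iff u g₂).1 h2).symm).1
      refine hzd ?_
      have e1 : z = u * (g₁ * g₂) := by rw [egg, ← mul_assoc, hu2, one_mul]
      rw [e1]; exact ((S.pair_comm hd he).1.symm).mul_left (a1.mul_left a2)
    · exact h2.1
  have hui : u⁻¹ = u := inv_eq_of_mul_eq_one_right hu2
  have ez : z = g₁ * u * g₁ := by
    have h1 : u * g₁ * u = g₂ := by rw [← sw, cj, hui]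
    calc z = u * z * u := by rw [mul_assoc, hzu.eq, ← mul_assoc, hu2, one_mul]
      _ = g₁ * (u * g₁ * u) * u := by rw [h1, egg]
      _ = g₁ * u * g₁ * (u * u) := by simp only [mul_assoc]
      _ = g₁ * u * g₁ := by rw [hu2, mul_one]
  set a := cj g₁ d
  set b := cj g₁ e
  have ha : a ∈ D := S.inv' _ d hd
  have hb : b ∈ link D a := S.link_cj he
  have eab : a * b = z := by
    rw [ez, ← cj_map_mul, S.cj_eq hg1]
  obtain ⟨fa, -⟩ := S.stab_member ha hb hf (by rw [eab]; exact hzf.symm)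
  refine ⟨⟨he.1, hf, ?_, ?_⟩, a, ha, fa.symm, ?_⟩
  · intro hc
    exact S.no_common h he hc.symm
  · intro h3
    refine hn3 ?_
    have e1 : cj z (d * f) = e * f := by rw [cj_map_mul, sd, (cj_eq_self_iff z f).2 hzf]
    apply cj_injective z
    rw [show cj z ((d * f) ^ 3) = cj z (d * f) ^ 3 from map_pow (MulAut.conj z) _ 3, e1, h3]
    simp [cj]
  · have cua : cj u a = b := by
      rcases S.stab ha hb (g := u) (by rw [eab]; exact hzu.symm) with ⟨h1, h2⟩ | h2
      · exfalso
        have a1 := (S.stab_member hd he ha ((cj_eq_self_iff u a).1 h1).symm).1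
        have a2 := (S.stab_member hd he hb.1 ((cj_eq_self_iff u b).1 h2).symm).1
        exact hzd (eab ▸ a1.mul_left a2)
      · exact h2.1
    have aua : cj a u = u * z := by
      have h1 : u * a * u = b := by rw [← cua, cj, hui]
      calc cj a u = a * u * a := S.cj_eq ha u
        _ = u * (u * a * u) * a := by simp only [← mul_assoc, hu2, one_mul]
        _ = u * (b * a) := by rw [h1, mul_assoc]
        _ = u * z := by rw [hb.2.2.symm.eq, eab]
    have dzd : cj d z = u * z := by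
      have h1 : z * d = e * z := by
        have := sd; rw [cj, mul_inv_eq_iff_eq_mul] at this; exact this
      calc cj d z = d * z * d := S.cj_eq hd z
        _ = d * (z * d) := mul_assoc _ _ _
        _ = u * z := by rw [h1, ← mul_assoc]
    have caz : cj a z = z := (cj_eq_self_iff a z).2 (eab ▸ (Commute.refl a).mul_right hb.2.2)
    have cdu : cj d u = u := (cj_eq_self_iff d u).2 (S.pair_comm hd he).1
    set x := a * d with hx
    have x1 : cj x u = u * z := by rw [hx, cj_mul, cdu, aua]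
    have x2 : cj x (u * z) = z := by
      rw [hx, cj_mul, cj_map_mul d, cdu, dzd, ← mul_assoc, hu2, one_mul, caz]
    have x3 : cj x z = u := by
      rw [hx, cj_mul, dzd, cj_map_mul a, aua, caz, mul_assoc, hzz, mul_one]
    have had : ¬ Commute a d := fun hc => by
      have hxx : x * x = 1 := by
        calc a * d * (a * d) = a * (d * a) * d := by simp only [mul_assoc]
          _ = a * a * (d * d) := by rw [← hc.eq]; simp only [mul_assoc]
          _ = 1 := by rw [S.sq a ha, S.sq d hd, mul_one]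
      have h1 : u = z := by
        rw [← x2, ← x1, ← cj_mul, hxx, cj_one]
      exact hzd (h1 ▸ (S.pair_comm hd he).1.symm)
    have hodd := S.odd_of_not_commute ha hd had
    have hw : cj (x * x * x) u = u := by rw [cj_mul, cj_mul, x1, x2, x3]
    have hwd : Commute (x * x * x) d := by
      rcases S.stab hd he ((cj_eq_self_iff _ u).1 hw) with ⟨h1, -⟩ | ⟨h1, h2⟩
      · exact (cj_eq_self_iff _ d).1 h1
      exfalso
      obtain ⟨k, hk⟩ : Odd (orderOf (x * x * x)) := by
        refine Odd.of_dvd_nat hodd ?_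
        rw [show x * x * x = x ^ 3 by simp [pow_succ, mul_assoc]]
        exact orderOf_pow_dvd 3
      set w := x * x * x with hwdef
      have hpow : ∀ n : ℕ, cj (w ^ (2 * n)) d = d := by
        intro n
        induction n with
        | zero => simp [cj]
        | succ n ih =>
          rw [show 2 * (n + 1) = 1 + (1 + 2 * n) by ring, pow_add, pow_one, pow_add, pow_one,
            cj_mul w, cj_mul w, ih, h1, h2]
      have hd' : cj (w ^ orderOf w) d = e := by rw [hk, pow_succ', cj_mul, hpow, h1]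
      rw [pow_orderOf_eq_one, cj_one] at hd'
      exact he.2.1 hd'.symm
    have hinv : cj d x = x⁻¹ := by
      rw [hx, mul_inv_rev, S.inv_eq hd, S.inv_eq ha, S.cj_eq hd, mul_assoc, mul_assoc, S.sq d hd,
        mul_one]
    have e3 : x ^ 3 * x ^ 3 = 1 := by
      have h1 : cj d (x ^ 3) = (x ^ 3)⁻¹ := by
        rw [show cj d (x ^ 3) = cj d x ^ 3 from map_pow (MulAut.conj d) _ 3, hinv, inv_pow]
      rw [(cj_eq_self_iff d _).2 (by rw [show x ^ 3 = x * x * x by simp [pow_succ, mul_assoc]]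
                                     exact hwd.symm)] at h1
      exact eq_inv_iff_mul_eq_one.1 h1
    exact TwoFusion.eq_one_of_odd_of_sq (hodd.of_dvd_nat (orderOf_pow_dvd 3)) e3

theorem three_trans {a b : G} (ha : a ∈ D) (hb : b ∈ D) : (a * b) ^ 2 = 1 ∨ (a * b) ^ 3 = 1 := by
  by_cases hc : Commute a b
  · left; rw [hc.mul_pow, pow_two, pow_two, S.sq a ha, S.sq b hb, mul_one]
  by_contra h
  push Not at h
  have hfar : Far D a b := ⟨ha, hb, hc, h.2⟩
  obtain ⟨e, he⟩ := S.link_nonempty ha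
  obtain ⟨-, c, hcD, hcb, hca⟩ := S.far_step hfar he
  have inv3 : ∀ {x y : G}, x ∈ D → y ∈ D → (x * y) ^ 3 = 1 → (y * x) ^ 3 = 1 := fun hx hy e => by
    rw [← inv_inj, inv_one, ← inv_pow, mul_inv_rev, S.inv_eq hx, S.inv_eq hy]; exact e
  by_cases ecb : c = b
  · subst ecb; exact h.2 (inv3 hcD ha hca)
  have hfar' : Far D b a := ⟨hb, ha, fun x => hc x.symm, fun e => h.2 (inv3 hb ha e)⟩
  exact (S.far_step hfar' ⟨hcD, ecb, hcb.symm⟩).1.2.2.2 hca

theorem set_three : Cfsg.IsThreeTranspositionSet D :=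
  ⟨fun _ ha => S.ord_two ha, fun _ ha _ hb => S.three_trans ha hb⟩

omit [Finite G] in
/-- A subgroup containing a member and its neighbours contains its centraliser. -/
theorem centralizer_le {a : G} (ha : a ∈ D) {H : Subgroup G} (haH : a ∈ H)
    (hl : ∀ b ∈ link D a, b ∈ H) : Subgroup.centralizer ({a} : Set G) ≤ H := by
  intro x hx
  have hxc : Commute x a := Subgroup.mem_centralizer_singleton_iff.1 hx
  have hq : ∀ q : P, ∃ y ∈ H, Commute y a ∧ S.im ha y = q := by
    intro q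
    have hq : q ∈ Subgroup.closure T := by
      rw [show Subgroup.closure T = ⊤ from (UnitarySix.allTT_class hF4).2.2]; exact Subgroup.mem_top q
    induction hq using Subgroup.closure_induction with
    | mem q hq =>
      obtain ⟨b, hb, rfl⟩ := S.exists_lift ha hq
      exact ⟨b, hl b hb, hb.2.2.symm, rfl⟩
    | one => exact ⟨1, H.one_mem, Commute.one_left a, S.im_one ha⟩
    | mul q q' _ _ h h' =>
      obtain ⟨y, hy, hyc, rfl⟩ := h
      obtain ⟨y', hy', hyc', rfl⟩ := h'
      exact ⟨y * y', H.mul_mem hy hy', hyc.mul_left hyc', S.im_mul ha hyc hyc'⟩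
    | inv q _ h =>
      obtain ⟨y, hy, hyc, rfl⟩ := h
      exact ⟨y⁻¹, H.inv_mem hy, hyc.inv_left, S.im_inv ha hyc⟩
  obtain ⟨y, hy, hyc, hye⟩ := hq (S.im ha x)
  have he : S.im ha (y⁻¹ * x) = 1 := by
    rw [S.im_mul ha hyc.inv_left hxc, S.im_inv ha hyc, hye, inv_mul_cancel]
  rcases (S.im_eq_one ha (hyc.inv_left.mul_left hxc)).1 he with e | e
  · exact (inv_mul_eq_one.1 e) ▸ hy
  · rw [inv_mul_eq_iff_eq_mul] at e; exact e ▸ H.mul_mem hy haH

/-- The class is one class under the group it generates. -/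
theorem exists_conj_closure {a b : G} (ha : a ∈ D) (hb : b ∈ D) :
    ∃ m ∈ Subgroup.closure D, cj m a = b := by
  by_cases hab : a = b
  · exact ⟨1, one_mem _, by rw [cj_one, hab]⟩
  by_cases hc : Commute a b
  · have hbl : b ∈ link D a := ⟨hb, Ne.symm hab, hc⟩
    have hpos : 0 < (link T (S.im ha b)).ncard := by
      rw [(allTT_srg hF4).deg _ (S.im_mem ha hbl)]; norm_num
    obtain ⟨q, hq, hqb, hqc⟩ := (Set.ncard_pos (Set.toFinite _)).1 hpos
    obtain ⟨w, hw, rfl⟩ := S.exists_lift ha hq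
    have cwb : Commute w b := S.im_refl ha hw.2.2.symm hbl hqc.symm
    have la : a ∈ link D w := link_symm ha hw
    have lb : b ∈ link D w := ⟨hb, fun e => hqb (by rw [e]), cwb⟩
    set p := S.im hw.1 a
    set q := S.im hw.1 b
    obtain ⟨r, hrT, hr1, hr2⟩ : ∃ r ∈ T, ¬ Commute p r ∧ ¬ Commute q r := by
      by_contra hno
      push Not at hno
      have hsub : T ⊆ insert p (insert q (link T p ∪ link T q)) := by
        intro r hr
        by_cases e1 : r = p
        · exact Or.inl e1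
        by_cases e2 : r = q
        · exact Or.inr (Or.inl e2)
        by_cases hp : Commute p r
        · exact Or.inr (Or.inr (Or.inl ⟨hr, e1, hp⟩))
        · exact Or.inr (Or.inr (Or.inr ⟨hr, e2, hno r hr hp⟩))
      have h := Set.ncard_le_ncard hsub (Set.toFinite _)
      have h' := Set.ncard_insert_le p (insert q (link T p ∪ link T q))
      have h'' := Set.ncard_insert_le q (link T p ∪ link T q)
      have h3 := Set.ncard_union_le (link T p) (link T q)
      rw [(allTT_srg hF4).card] at h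
      rw [(allTT_srg hF4).deg p (S.im_mem hw.1 la), (allTT_srg hF4).deg q (S.im_mem hw.1 lb)] at h3
      omega
    obtain ⟨x, hx, rfl⟩ := S.exists_lift hw.1 hrT
    have n1 : ¬ Commute a x := fun h => hr1 (S.im_commute hw.1 la.2.2.symm hx.2.2.symm h)
    have n2 : ¬ Commute b x := fun h => hr2 (S.im_commute hw.1 lb.2.2.symm hx.2.2.symm h)
    obtain ⟨h1, m1, e1, -⟩ := S.move ha hx.1 n1
    obtain ⟨h2, m2, e2, -⟩ := S.move hx.1 hb fun h => n2 h.symm
    exact ⟨h2 * h1, mul_mem m2 m1, by rw [cj_mul, e1, e2]⟩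
  · obtain ⟨h, m, e, -⟩ := S.move ha hb hc
    exact ⟨h, m, e⟩

theorem closure_top {d : G} (hd : d ∈ D) : Subgroup.closure D = ⊤ := by
  rw [eq_top_iff]
  intro g _
  obtain ⟨m, hm, e⟩ := S.exists_conj_closure hd (S.inv' g d hd)
  have hc : Commute (m⁻¹ * g) d := (cj_eq_self_iff _ d).1 (by rw [cj_mul, ← e, cj_inv_cj])
  have h1 : m⁻¹ * g ∈ Subgroup.closure D :=
    S.centralizer_le hd (Subgroup.subset_closure hd) (fun b hb => Subgroup.subset_closure hb.1)
      (Subgroup.mem_centralizer_singleton_iff.2 hc.eq)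
  have := mul_mem hm h1
  rwa [mul_inv_cancel_left] at this

end Setting

end Cfsg.Agent.M22Trans
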