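import Cfsg.Agent.M22Trans.Setup
import Cfsg.Agent.TwoFusion.ZStarHolds
import Mathlib.GroupTheory.SchurZassenhaus

/-!
The centraliser of the product of two commuting members stabilises the pair.
-/

set_option autoImplicit false
set_option maxHeartbeats 1000000

namespace Cfsg.Agent.M22Trans

open Cfsg.Agent.TTLink Cfsg.Agent.ThreeTransp45 Cfsg.Agent.SporB

variable {G : Type*} [Group G] {D : Set G}

/-- An odd normal subgroup of the centraliser of `f a` modulo which `f` is central. -/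
structure Core (f a : G) (O : Subgroup G) : Prop where
  le : ∀ r ∈ O, Commute r (f * a)
  odd : Odd (Nat.card O)
  norm : ∀ g, Commute g (f * a) → ∀ r ∈ O, cj g r ∈ O
  comm : ∀ g, Commute g (f * a) → ∃ r ∈ O, f * g * f * g⁻¹ = r ∨ f * g * f * g⁻¹ = r * (f * a)

namespace Setting

variable [Finite G] (S : Setting D)
include S

theorem pair_sq {f a : G} (hf : f ∈ D) (ha : a ∈ link D f) : f * a * (f * a) = 1 := by
  calc f * a * (f * a) = f * (a * f) * a := by simp only [mul_assoc]
    _ = f * f * (a * a) := by rw [← ha.2.2.eq]; simp only [mul_assoc]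
    _ = 1 := by rw [S.sq f hf, S.sq a ha.1, mul_one]

theorem pair_comm {f a : G} (hf : f ∈ D) (ha : a ∈ link D f) :
    Commute f (f * a) ∧ Commute a (f * a) :=
  ⟨(Commute.refl f).mul_right ha.2.2, ha.2.2.symm.mul_right (Commute.refl a)⟩

theorem other_eq {f a g : G} (hf : f ∈ D) (hg : Commute g (f * a)) :
    cj g a = cj g f * (f * a) := by
  have e : cj g f * cj g a = f * a := by rw [← cj_map_mul]; exact (cj_eq_self_iff g _).2 hg
  rw [← e, ← mul_assoc, S.sq _ (S.inv' g f hf), one_mul]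

/-- Conjugates of a member in the centraliser of the product which commute with it. -/
theorem isol {f a : G} (hf : f ∈ D) (ha : a ∈ link D f) {g : G} (hg : Commute g (f * a))
    (hc : Commute (cj g f) f) : cj g f = f ∨ cj g f = a := by
  by_contra h
  push Not at h
  obtain ⟨h1, h2⟩ := h
  have e : cj g f * cj g a = f * a := by rw [← cj_map_mul]; exact (cj_eq_self_iff g _).2 hg
  have hz : Commute (cj g f) (f * a) := by
    rw [← (cj_eq_self_iff g _).2 hg, cj_commute_iff]; exact (S.pair_comm hf ha).1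
  have l1 : cj g f ∈ link D f := ⟨S.inv' g f hf, h1, hc.symm⟩
  have e2 := S.other_eq hf hg
  have l2 : cj g a ∈ link D f := by
    refine ⟨S.inv' g a ha.1, fun e3 => h2 ?_, ?_⟩
    · rw [e3] at e
      refine mul_right_cancel (e.trans ?_)
      rw [ha.2.2.eq]
    · rw [e2]; exact hc.symm.mul_right (S.pair_comm hf ha).1
  exact S.four_ne_one hf ha l1 l2 (Ne.symm h2) (by rw [mul_assoc, e]; exact S.pair_sq hf ha)

theorem exists_core {f a : G} (hf : f ∈ D) (ha : a ∈ link D f) :
    ∃ O : Subgroup G, Core f a O := by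
  haveI : Fact (Nat.Prime 2) := ⟨Nat.prime_two⟩
  set z := f * a with hz
  let X := Subgroup.centralizer ({z} : Set G)
  have hzz := S.pair_sq hf ha
  have hz1 : z ≠ 1 := S.two_ne_one ha.1 ha.2.1.symm
  have hX : ∀ x : ↥X, Commute (x : G) z := fun x => Subgroup.mem_centralizer_singleton_iff.1 x.2
  let zz : ↥X := ⟨z, Subgroup.mem_centralizer_singleton_iff.2 rfl⟩
  let fx : ↥X := ⟨f, Subgroup.mem_centralizer_singleton_iff.2 (S.pair_comm hf ha).1.eq⟩
  let Z : Subgroup ↥X := Subgroup.zpowers zz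
  haveI hZn : Z.Normal := ⟨fun n hn g => by
    obtain ⟨k, rfl⟩ := Subgroup.mem_zpowers_iff.1 hn
    have hc : Commute g (zz ^ k) := (show Commute g zz from Subtype.ext (hX g).eq).zpow_right k
    rw [hc.eq, mul_inv_cancel_right]
    exact Subgroup.zpow_mem _ (Subgroup.mem_zpowers zz) k⟩
  have hZ : ∀ x : ↥X, x ∈ Z ↔ x = 1 ∨ x = zz := by
    intro x
    constructor
    · intro hx
      obtain ⟨k, rfl⟩ := Subgroup.mem_zpowers_iff.1 hx
      have h2 : zz * zz = 1 := Subtype.ext hzz
      rcases Int.even_or_odd k with ⟨m, rfl⟩ | ⟨m, rfl⟩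
      · left; rw [← two_mul, zpow_mul, zpow_two, h2, one_zpow]
      · right; rw [zpow_add_one, zpow_mul, zpow_two, h2, one_zpow, one_mul]
    · rintro (rfl | rfl)
      exacts [one_mem _, Subgroup.mem_zpowers _]
  let π := QuotientGroup.mk' Z
  have hfZ : fx ∉ Z := fun h => by
    rcases (hZ fx).1 h with e | e
    · exact S.ne_one hf (congrArg Subtype.val e)
    · exact S.ne_one ha.1 (left_eq_mul.1 (congrArg Subtype.val e))
  have hord : orderOf (π fx) = 2 := by
    refine Invol.orderOf_eq_two ?_ fun h => hfZ ((QuotientGroup.eq_one_iff fx).1 h)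
    rw [← map_mul, show fx * fx = 1 from Subtype.ext (S.sq f hf), map_one]
  have hiso : Cfsg.IsIsolatedInvolution (π fx) := by
    refine ⟨hord, fun y hy => ?_⟩
    obtain ⟨g, rfl⟩ := QuotientGroup.mk'_surjective Z y
    rw [← map_inv, ← map_mul, ← map_mul] at hy ⊢
    set f' := g * fx * g⁻¹ with hf'
    have hval : (f' : G) = cj (g : G) f := rfl
    have hmem : f' * fx * f'⁻¹ * fx⁻¹ ∈ Z := by
      refine (QuotientGroup.eq_one_iff _).1 ?_
      change π (f' * fx * f'⁻¹ * fx⁻¹) = 1
      rw [map_mul, map_mul, map_mul, map_inv, map_inv, show π f' * π fx = π fx * π f' from hy.symm.eq,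
        mul_inv_cancel_right, mul_inv_cancel]
    rcases (hZ _).1 hmem with e | e <;> have e' := congrArg Subtype.val e
    · have hc : Commute (cj (g : G) f) f := by
        rw [← hval]
        exact congrArg Subtype.val (commutatorElement_eq_one_iff_commute.1 e).eq
      rcases S.isol hf ha (hX g) hc with h | h
      · rw [show f' = fx from Subtype.ext h]
      · refine (QuotientGroup.eq.2 ((hZ _).2 (Or.inr (Subtype.ext ?_)))).symm
        show f⁻¹ * (f' : G) = z
        rw [hval, h, S.inv_eq hf]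
    · exfalso
      refine S.noswap hf ha (S.inv' (g : G) f hf) ?_
      change cj (g : G) f * f * (cj (g : G) f)⁻¹ * f⁻¹ = z at e'
      rw [mul_inv_eq_iff_eq_mul] at e'
      show cj (g : G) f * f * (cj (g : G) f)⁻¹ = a
      rw [e', hz, ha.2.2.eq, mul_assoc, S.sq f hf, mul_one]
  obtain ⟨N, hN, hodd, hcom⟩ := TwoFusion.exists_odd_normal_of_isolated hiso
  haveI := hN
  set n := Nat.card N with hn
  let M := N.comap π
  have hZM : Z ≤ M := fun x hx => by
    show π x ∈ N
    rw [show π x = 1 from (QuotientGroup.eq_one_iff x).2 hx]; exact N.one_mem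
  have hcardZ : Nat.card Z = 2 := by
    rw [Nat.card_zpowers]
    exact Invol.orderOf_eq_two (Subtype.ext hzz) fun e => hz1 (congrArg Subtype.val e)
  have hcardM : Nat.card M = 2 * n := by
    have h1 : M.index = N.index := N.index_comap_of_surjective (QuotientGroup.mk'_surjective Z)
    have h2 := M.card_mul_index
    have h3 := N.card_mul_index
    have h4 := Subgroup.card_eq_card_quotient_mul_card_subgroup Z
    rw [hcardZ] at h4
    rw [h1, h4, ← h3] at h2
    exact Nat.eq_of_mul_eq_mul_right (Nat.pos_of_ne_zero (Subgroup.index_ne_zero_of_finite (H := N)))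
      (h2.trans (by ring))
  let Z' := Z.subgroupOf M
  have hZ'c : Nat.card Z' = 2 := by
    rw [Nat.card_congr (Subgroup.subgroupOfEquivOfLe hZM).toEquiv, hcardZ]
  have hZ'i : Z'.index = n := by
    have := Z'.card_mul_index
    rw [hZ'c, hcardM] at this; omega
  haveI : Z'.Normal := by
    show (Z.subgroupOf M).Normal
    infer_instance
  obtain ⟨K, hK⟩ := Subgroup.exists_right_complement'_of_coprime (N := Z')
    (by rw [hZ'c, hZ'i]; exact Nat.coprime_two_left.2 hodd)
  have hKc : Nat.card K = n := by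
    have := hK.card_mul
    rw [hZ'c, hcardM] at this; omega
  have hchar : ∀ x : ↥M, x ∈ K ↔ x ^ n = 1 := by
    intro x
    constructor
    · intro hx
      have := pow_card_eq_one' (x := (⟨x, hx⟩ : ↥K))
      rw [hKc] at this
      exact congrArg Subtype.val this
    · intro hx
      obtain ⟨⟨⟨u, hu⟩, ⟨k, hk⟩⟩, huk⟩ := hK.2 x
      change u * k = x at huk
      have hu2 : u = 1 ∨ (u : ↥X) = zz := ((hZ _).1 hu).imp_left fun e => Subtype.ext e
      rcases hu2 with rfl | hu2
      · rw [← huk, one_mul]; exact hk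
      exfalso
      have hc : Commute u k := Subtype.ext (by
        show (u : ↥X) * k = k * u
        rw [hu2]; exact Subtype.ext (hX (k : ↥X)).eq.symm)
      have hk1 : k ^ n = 1 := by
        have := pow_card_eq_one' (x := (⟨k, hk⟩ : ↥K))
        rw [hKc] at this
        exact congrArg Subtype.val this
      rw [← huk, hc.mul_pow, hk1, mul_one] at hx
      have hx' : zz ^ n = 1 := by
        rw [← hu2]; exact (congrArg Subtype.val hx : ((u : ↥M) ^ n : ↥M).1 = 1)
      have hd : orderOf zz ∣ n := orderOf_dvd_of_pow_eq_one hx'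
      rw [Invol.orderOf_eq_two (show zz * zz = 1 from Subtype.ext hzz)
        (fun e => hz1 (congrArg Subtype.val e))] at hd
      exact Nat.not_even_iff_odd.2 hodd (even_iff_two_dvd.2 hd)
  refine ⟨(K.map M.subtype).map X.subtype, ?_, ?_, ?_, ?_⟩
  · rintro r ⟨x, ⟨k, -, rfl⟩, rfl⟩
    exact hX _
  · rw [Subgroup.card_map_of_injective X.subtype_injective,
      Subgroup.card_map_of_injective M.subtype_injective, hKc]
    exact hodd
  · rintro g hg _ ⟨_, ⟨k, hk, rfl⟩, rfl⟩
    let gx : ↥X := ⟨g, Subgroup.mem_centralizer_singleton_iff.2 hg.eq⟩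
    have hM : gx * (k : ↥X) * gx⁻¹ ∈ M := (N.normal_comap π).conj_mem _ k.2 gx
    refine ⟨gx * (k : ↥X) * gx⁻¹, ⟨⟨_, hM⟩, (hchar _).2 (Subtype.ext ?_), rfl⟩, rfl⟩
    show (gx * (k : ↥X) * gx⁻¹) ^ n = 1
    rw [conj_pow, show (k : ↥X) ^ n = 1 from congrArg Subtype.val ((hchar k).1 hk), mul_one,
      mul_inv_cancel]
  · intro g hg
    let gx : ↥X := ⟨g, Subgroup.mem_centralizer_singleton_iff.2 hg.eq⟩
    have hmM : fx * gx * fx⁻¹ * gx⁻¹ ∈ M := by
      show π _ ∈ N
      rw [map_mul, map_mul, map_mul, map_inv, map_inv]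
      exact hcom _
    obtain ⟨⟨⟨u, hu⟩, ⟨k, hk⟩⟩, huk⟩ := hK.2 (⟨_, hmM⟩ : ↥M)
    refine ⟨((k : ↥X) : G), ⟨_, ⟨k, hk, rfl⟩, rfl⟩, ?_⟩
    have e := congrArg (fun w : ↥M => ((w : ↥X) : G)) huk
    change ((u : ↥X) : G) * (k : ↥X) = f * g * f⁻¹ * g⁻¹ at e
    rw [S.inv_eq hf] at e
    rcases (hZ _).1 hu with h | h <;> have h' := congrArg Subtype.val h
    · left; rw [← e, show ((u : ↥X) : G) = 1 from h', one_mul]
    · right; rw [← e, show ((u : ↥X) : G) = z from h', (hX _).eq]

omit S in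
theorem odd_eq_one {O : Subgroup G} (ho : Odd (Nat.card O)) {r : G} (hr : r ∈ O) {k : ℕ}
    (h : r ^ 2 ^ k = 1) : r = 1 := by
  have h1 : orderOf r ∣ Nat.card O := by
    rw [← Subgroup.orderOf_mk r hr]; exact orderOf_dvd_natCard _
  refine orderOf_eq_one_iff.1 (Nat.eq_one_of_dvd_coprimes ?_ h1 (orderOf_dvd_of_pow_eq_one h))
  exact (Nat.coprime_two_right.2 ho).pow_right k

omit S in
/-- A fixed-point-free involution of an odd group inverts it. -/
theorem inverts {O : Subgroup G} (ho : Odd (Nat.card O)) {t : G} (ht : t * t = 1)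
    (hn : ∀ r ∈ O, cj t r ∈ O) (hfree : ∀ r ∈ O, Commute t r → r = 1) :
    ∀ r ∈ O, cj t r = r⁻¹ := by
  let φ : ↥O → ↥O := fun r => r⁻¹ * ⟨cj t r, hn r r.2⟩
  have hinj : Function.Injective φ := by
    intro r s h
    have h' : (r : G)⁻¹ * cj t r = (s : G)⁻¹ * cj t s := congrArg Subtype.val h
    have e : cj t ((s : G) * (r : G)⁻¹) = (s : G) * (r : G)⁻¹ := by
      rw [cj_map_mul, cj_map_inv]
      calc cj t s * (cj t r)⁻¹ = (s : G) * ((s : G)⁻¹ * cj t s) * (cj t r)⁻¹ := by group
        _ = (s : G) * ((r : G)⁻¹ * cj t r) * (cj t r)⁻¹ := by rw [h']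
        _ = _ := by group
    have := hfree _ (O.mul_mem s.2 (O.inv_mem r.2)) ((cj_eq_self_iff t _).1 e)
    exact Subtype.ext (mul_inv_eq_one.1 this).symm
  intro x hx
  obtain ⟨r, hr⟩ := Finite.surjective_of_injective hinj ⟨x, hx⟩
  have hr' : (r : G)⁻¹ * cj t r = x := congrArg Subtype.val hr
  rw [← hr', cj_map_mul, cj_map_inv, ← cj_mul, ht, cj_one, mul_inv_rev, inv_inv]

variable {f a : G} {O : Subgroup G}

/-- The core centralises nothing but the identity with `f`. -/
theorem core_fix (hf : f ∈ D) (ha : a ∈ link D f) (hO : Core f a O) {r : G} (hr : r ∈ O)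
    (hrf : Commute r f) : r = 1 := by
  obtain ⟨cf, ca⟩ := S.pair_comm hf ha
  have hra : Commute r a := by
    have h : Commute r (f⁻¹ * (f * a)) := hrf.inv_right.mul_right (hO.le r hr)
    rwa [inv_mul_cancel_left] at h
  have hg : cj r f = f ∧ cj r a = a ∨ cj r f = a ∧ cj r a = f :=
    Or.inl ⟨(cj_eq_self_iff r f).2 hrf, (cj_eq_self_iff r a).2 hra⟩
  have hcomm : ∀ b ∈ near D f a, Commute r b := by
    intro b hb
    have hbz : Commute b (f * a) := hb.1.2.2.symm.mul_right hb.2.2.2.symm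
    obtain ⟨y, hy, hyb⟩ : ∃ y ∈ cls D f a b, y ≠ b := by
      by_contra h
      push Not at h
      have hle := Set.ncard_le_ncard (s := cls D f a b) (t := {b}) (fun y hy => h y hy) (Set.toFinite _)
      rw [Set.ncard_singleton, S.cls_card hf ha hb] at hle
      omega
    have hb' : cj r b ∈ cls D f a (cj r b) := S.cls_cj_mem hg (S.self_mem_cls hb)
    have hy' : cj r y ∈ cls D f a (cj r b) := S.cls_cj_mem hg hy
    have fa := ha.2.2.symm
    have fb := hb.1.2.2.symm
    have fy := hy.1.1.2.2.symm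
    have fb' := hb'.1.1.2.2.symm
    have fy' := hy'.1.1.2.2.symm
    have hw : Commute (b * y) (f * a) := hbz.mul_left (hy.1.1.2.2.symm.mul_right hy.1.2.2.2.symm)
    have hyy : y * b * (b * y) = 1 := by
      rw [mul_assoc, ← mul_assoc b b, S.sq b hb.1.1, one_mul, S.sq y hy.1.1.1]
    have hcO : cj r (b * y) * (y * b) ∈ O := by
      rw [show y * b = (b * y)⁻¹ by rw [mul_inv_rev, S.inv_eq hb.1.1, S.inv_eq hy.1.1.1],
        show cj r (b * y) * (b * y)⁻¹ = r * cj (b * y) r⁻¹ by simp [cj, mul_assoc]]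
      exact O.mul_mem hr (hO.norm _ hw _ (O.inv_mem hr))
    have him : S.im hf (cj r (b * y) * (y * b)) =
        S.im hf (cj r b) * S.im hf (cj r y) * (S.im hf b * S.im hf y) := by
      rw [cj_map_mul, S.im_mul hf (fb'.mul_left fy') (fy.mul_left fb), S.im_mul hf fb' fy',
        S.im_mul hf fy fb, (S.im_commute hf fy fb hy.2.1).eq]
    have ne1 : ∀ {u : G}, u ∈ near D f a → S.im hf a ≠ S.im hf u := fun hu e =>
      hu.2.2.1 (S.im_inj hf ha hu.1 e).symm
    have h4 : (S.im hf (cj r b) * S.im hf (cj r y) * (S.im hf b * S.im hf y)) ^ 4 = 1 := by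
      refine line_four (S.im_mem hf ha) (S.im_mem hf hb'.1.1) (ne1 hb'.1)
        (S.im_commute hf fa fb' hb'.1.2.2.2) ((S.cls_iff hf ha hb'.1 hy'.1).1 hy') (ne1 hy'.1).symm
        (S.im_mem hf hb.1) (ne1 hb) (S.im_commute hf fa fb hb.2.2.2)
        ((S.cls_iff hf ha hb hy.1).1 hy) (ne1 hy.1).symm
    have hcf : Commute (cj r (b * y) * (y * b)) f := by
      rw [cj_map_mul]; exact (fb'.mul_left fy').mul_left (fy.mul_left fb)
    rw [← him, ← S.im_pow hf hcf] at h4
    have hc4 := (S.im_eq_one hf (hcf.pow_left 4)).1 h4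
    have hc1 : cj r (b * y) * (y * b) = 1 := by
      refine odd_eq_one hO.odd hcO (k := 3) ?_
      rw [show (2 : ℕ) ^ 3 = 4 * 2 from rfl, pow_mul]
      rcases hc4 with e | e <;> rw [e, pow_two]
      · exact mul_one 1
      · exact S.sq f hf
    have hwr : cj r (b * y) = b * y := by
      rw [mul_eq_one_iff_eq_inv.1 hc1, mul_inv_rev, S.inv_eq hb.1.1, S.inv_eq hy.1.1.1]
    have hbb : Commute (cj r b) b := by
      have h1 : Commute (cj r b) (cj r b * cj r y) :=
        (Commute.refl _).mul_right ((cj_commute_iff r b y).2 hy.2.1.symm)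
      rw [← cj_map_mul, hwr] at h1
      have h2 := S.im_commute hf fb' (fb.mul_left fy) h1
      rw [S.im_mul hf fb fy] at h2
      exact S.im_refl hf fb' hb.1 ((T_commute_two (S.im_mem hf hb.1) (S.im_mem hf hy.1.1)
        (S.im_mem hf hb'.1.1) fun e => hyb (S.im_inj hf hb.1 hy.1.1 e).symm).1 h2).1
    have hbO : cj r b * b ∈ O := by
      rw [show cj r b * b = r * cj b r⁻¹ by
        conv_lhs => arg 2; rw [← S.inv_eq hb.1.1]
        simp [cj, mul_assoc]]
      exact O.mul_mem hr (hO.norm b hbz _ (O.inv_mem hr))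
    have hb1 : cj r b * b = 1 := odd_eq_one hO.odd hbO (k := 1) (by
      rw [pow_one, hbb.mul_pow, pow_two, pow_two, S.sq _ hb'.1.1.1, S.sq b hb.1.1, mul_one])
    refine (cj_eq_self_iff r b).1 ?_
    rw [mul_eq_one_iff_eq_inv.1 hb1, S.inv_eq hb.1.1]
  have h1 : S.im hf r = 1 := by
    refine centralizer_link (S.im_mem hf ha) (S.im_commute hf hrf ha.2.2.symm hra) ?_ ?_
    · refine Odd.of_dvd_nat hO.odd (dvd_trans ?_ (Subgroup.orderOf_mk r hr ▸ orderOf_dvd_natCard
        (⟨r, hr⟩ : ↥O)))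
      exact orderOf_dvd_of_pow_eq_one (by rw [← S.im_pow hf hrf, pow_orderOf_eq_one, S.im_one])
    · intro q hq hqa hc
      obtain ⟨b, hb, rfl⟩ := S.exists_lift hf hq
      exact S.im_commute hf hrf hb.2.2.symm (hcomm b ⟨hb, hb.1, fun e => hqa (by rw [e]),
        S.im_refl hf ha.2.2.symm hb hc⟩)
  refine odd_eq_one hO.odd hr (k := 1) ?_
  rw [pow_one, pow_two]
  rcases (S.im_eq_one hf hrf).1 h1 with rfl | rfl
  · exact mul_one 1
  · exact S.sq _ hf

theorem core_fix_near (hf : f ∈ D) (ha : a ∈ link D f) (hO : Core f a O) {b : G}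
    (hb : b ∈ near D f a) {r : G} (hr : r ∈ O) (hrb : Commute r b) : r = 1 := by
  have hrz := hO.le r hr
  have hbl : f ∈ link D b := link_symm hf hb.1
  have hal : a ∈ link D b := link_symm ha.1 hb.2
  have e : cj r f * cj r a = f * a := by rw [← cj_map_mul]; exact (cj_eq_self_iff r _).2 hrz
  have er : cj r b = b := (cj_eq_self_iff r b).2 hrb
  have h1 : cj r f ∈ link D b := by have h := S.link_cj (g := r) hbl; rwa [er] at h
  have cfb := hbl.2.2.symm
  have cab := hal.2.2.symm
  have hc : Commute (cj r f) f := by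
    have h := S.im_commute hb.1.1 h1.2.2.symm (cfb.mul_left cab) (show Commute (cj r f) (f * a) by
      rw [← e]; exact (Commute.refl _).mul_right ((cj_commute_iff r f a).2 ha.2.2))
    rw [S.im_mul hb.1.1 cfb cab] at h
    exact S.im_refl hb.1.1 h1.2.2.symm hbl ((T_commute_two (S.im_mem hb.1.1 hbl) (S.im_mem hb.1.1 hal)
      (S.im_mem hb.1.1 h1) fun e' => ha.2.1 (S.im_inj hb.1.1 hbl hal e').symm).1 h).1
  rcases S.isol hf ha hrz hc with h | h
  · exact S.core_fix hf ha hO hr ((cj_eq_self_iff r f).1 h)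
  · have h' : cj r a = f := by
      rw [S.other_eq hf hrz, h, ha.2.2.eq, ← mul_assoc, S.sq a ha.1, one_mul]
    have h2 : Commute (r * r) f := (cj_eq_self_iff _ _).1 (by rw [cj_mul, h, h'])
    exact odd_eq_one hO.odd hr (k := 1) (by
      rw [pow_one, pow_two]; exact S.core_fix hf ha hO (O.mul_mem hr hr) h2)

/-- The three inverting members. -/
theorem core_inv (hf : f ∈ D) (ha : a ∈ link D f) (hO : Core f a O) :
    ∀ b, (b = f ∨ b = a ∨ b ∈ near D f a) → ∀ r ∈ O, cj b r = r⁻¹ := by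
  intro b hb
  obtain ⟨cf, ca⟩ := S.pair_comm hf ha
  rcases hb with rfl | rfl | hb
  · exact inverts hO.odd (S.sq _ hf) (hO.norm _ cf) fun r hr h => S.core_fix hf ha hO hr h.symm
  · refine inverts hO.odd (S.sq _ ha.1) (hO.norm _ ca) fun r hr h => S.core_fix hf ha hO hr ?_
    have h' : Commute r ((f * b) * b⁻¹) := (hO.le r hr).mul_right h.symm.inv_right
    rwa [mul_inv_cancel_right] at h'
  · exact inverts hO.odd (S.sq _ hb.1.1) (hO.norm _ (hb.1.2.2.symm.mul_right hb.2.2.2.symm))
      fun r hr h => S.core_fix_near hf ha hO hb hr h.symm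

theorem core_le (hf : f ∈ D) (ha : a ∈ link D f) (hO : Core f a O) {b : G} (hb : b ∈ near D f a)
    {O' : Subgroup G} (hO' : Core f b O') : O ≤ O' := by
  intro r hr
  have i1 := S.core_inv hf ha hO f (Or.inl rfl)
  have i2 := S.core_inv hf ha hO b (Or.inr (Or.inr hb))
  have hc : Commute r (f * b) := by
    refine ((cj_eq_self_iff (f * b) r).1 ?_).symm
    rw [cj_mul, i2 r hr, i1 _ (O.inv_mem hr), inv_inv]
  obtain ⟨s, hs, e⟩ := hO'.comm r hc
  have e1 : f * r * f * r⁻¹ = r⁻¹ * r⁻¹ := by rw [← S.cj_eq hf, i1 r hr]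
  rw [e1] at e
  have hrr : r⁻¹ * r⁻¹ ∈ O' := by
    rcases e with e | e
    · rw [e]; exact hs
    exfalso
    -- odd order against an involution
    set m := Nat.card O * Nat.card O' with hm
    have hmo : Odd m := hO.odd.mul hO'.odd
    have p1 : (r⁻¹ * r⁻¹) ^ m = 1 := by
      have := pow_card_eq_one' (x := (⟨_, O.mul_mem (O.inv_mem hr) (O.inv_mem hr)⟩ : ↥O))
      rw [hm, pow_mul, show (r⁻¹ * r⁻¹) ^ Nat.card O = 1 from congrArg Subtype.val this, one_pow]
    have p2 : s ^ m = 1 := by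
      have := pow_card_eq_one' (x := (⟨s, hs⟩ : ↥O'))
      rw [hm, mul_comm, pow_mul, show s ^ Nat.card O' = 1 from congrArg Subtype.val this, one_pow]
    rw [e, (hO'.le s hs).mul_pow, p2, one_mul] at p1
    obtain ⟨k, hk⟩ := hmo
    rw [hk, pow_succ, pow_mul, pow_two, S.pair_sq hf hb.1, one_pow, one_mul] at p1
    exact S.two_ne_one hb.1.1 hb.1.2.1.symm p1
  have h := hrr
  rw [← mul_inv_rev, Subgroup.inv_mem_iff] at h
  obtain ⟨k, hk⟩ : Odd (orderOf r) := Odd.of_dvd_nat hO.odd
    (Subgroup.orderOf_mk r hr ▸ orderOf_dvd_natCard (⟨r, hr⟩ : ↥O))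
  have : r = (r * r) ^ (k + 1) := by
    rw [← pow_two, ← pow_mul, show 2 * (k + 1) = orderOf r + 1 by omega, pow_succ, pow_orderOf_eq_one,
      one_mul]
  rw [this]; exact O'.pow_mem h _

theorem core_bot (hf : f ∈ D) (ha : a ∈ link D f) (hO : Core f a O) : O = ⊥ := by
  have hall : ∀ b ∈ link D f, ∀ r ∈ O, cj b r = r⁻¹ := by
    intro b hb
    by_cases hba : b = a
    · rw [hba]; exact S.core_inv hf ha hO a (Or.inr (Or.inl rfl))
    by_cases hc : Commute a b
    · exact S.core_inv hf ha hO b (Or.inr (Or.inr ⟨hb, hb.1, hba, hc⟩))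
    have hnc : ¬ Commute (S.im hf a) (S.im hf b) := fun h => hc (S.im_refl hf ha.2.2.symm hb h)
    have hmu := (allTT_srg hF4).far _ (S.im_mem hf ha) _ (S.im_mem hf hb) hnc
    obtain ⟨q, ⟨hq, hqa, hca⟩, -, hqb, hcb⟩ := Set.nonempty_of_ncard_ne_zero
      (s := link T (S.im hf a) ∩ link T (S.im hf b)) (by rw [hmu]; norm_num)
    obtain ⟨x, hx, rfl⟩ := S.exists_lift hf hq
    have hxa : x ∈ near D f a :=
      ⟨hx, hx.1, fun e => hqa (by rw [e]), S.im_refl hf ha.2.2.symm hx hca⟩
    have hxb : b ∈ link D f ∧ b ∈ link D x := by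
      refine ⟨hb, hb.1, fun e => hqb (by rw [e]), (S.im_refl hf hb.2.2.symm hx hcb).symm⟩
    have hax : a ∈ near D f x := ⟨ha, link_symm ha.1 hxa.2⟩
    obtain ⟨O', hO'⟩ := S.exists_core hf hx
    have e : O = O' := le_antisymm (S.core_le hf ha hO hxa hO') (S.core_le hf hx hO' hax hO)
    rw [e]
    exact S.core_inv hf hx hO' b (Or.inr (Or.inr hxb))
  -- the group generated by inverting elements
  let H : Subgroup G :=
    { carrier := {g | (∀ r ∈ O, cj g r = r) ∨ ∀ r ∈ O, cj g r = r⁻¹}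
      one_mem' := Or.inl fun r _ => cj_one r
      mul_mem' := by
        rintro g h (hg | hg) (hh | hh)
        · exact Or.inl fun r hr => by rw [cj_mul, hh r hr, hg r hr]
        · exact Or.inr fun r hr => by rw [cj_mul, hh r hr, hg _ (O.inv_mem hr)]
        · exact Or.inr fun r hr => by rw [cj_mul, hh r hr, hg r hr]
        · exact Or.inl fun r hr => by rw [cj_mul, hh r hr, hg _ (O.inv_mem hr), inv_inv]
      inv_mem' := by
        rintro g (hg | hg)
        · exact Or.inl fun r hr => by conv_lhs => rw [← hg r hr, cj_inv_cj]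
        · exact Or.inr fun r hr => by
            conv_lhs => rw [show r = cj g r⁻¹ by rw [hg _ (O.inv_mem hr), inv_inv], cj_inv_cj] }
  have hfH : f ∈ H := Or.inr (S.core_inv hf ha hO f (Or.inl rfl))
  have hCH : Subgroup.centralizer ({f} : Set G) ≤ H := by
    intro x hx
    have hxc : Commute x f := Subgroup.mem_centralizer_singleton_iff.1 hx
    have hq : ∀ q : P, ∃ y ∈ H, Commute y f ∧ S.im hf y = q := by
      intro q
      have hq : q ∈ Subgroup.closure T := by
        rw [show Subgroup.closure T = ⊤ from (UnitarySix.allTT_class hF4).2.2]; exact Subgroup.mem_top q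
      induction hq using Subgroup.closure_induction with
      | mem q hq =>
        obtain ⟨b, hb, rfl⟩ := S.exists_lift hf hq
        exact ⟨b, Or.inr (hall b hb), hb.2.2.symm, rfl⟩
      | one => exact ⟨1, H.one_mem, Commute.one_left f, S.im_one hf⟩
      | mul q q' _ _ h h' =>
        obtain ⟨y, hy, hyc, rfl⟩ := h
        obtain ⟨y', hy', hyc', rfl⟩ := h'
        exact ⟨y * y', H.mul_mem hy hy', hyc.mul_left hyc', S.im_mul hf hyc hyc'⟩
      | inv q _ h =>
        obtain ⟨y, hy, hyc, rfl⟩ := h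
        exact ⟨y⁻¹, H.inv_mem hy, hyc.inv_left, S.im_inv hf hyc⟩
    obtain ⟨y, hy, hyc, hye⟩ := hq (S.im hf x)
    have he : S.im hf (y⁻¹ * x) = 1 := by
      rw [S.im_mul hf hyc.inv_left hxc, S.im_inv hf hyc, hye, inv_mul_cancel]
    rcases (S.im_eq_one hf (hyc.inv_left.mul_left hxc)).1 he with e | e
    · exact (inv_mul_eq_one.1 e) ▸ hy
    · rw [inv_mul_eq_iff_eq_mul] at e; exact e ▸ H.mul_mem hy hfH
  obtain ⟨cv⟩ := S.cov f hf
  have hfix : ∀ r ∈ O, cj f r = r := by
    let C := Subgroup.centralizer ({f} : Set G)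
    let W : Subgroup ↥C :=
      { carrier := {w | ∀ r ∈ O, cj (w : G) r = r}
        one_mem' := fun r _ => cj_one r
        mul_mem' := fun {g h} hg hh r hr => by
          show cj ((g : G) * h) r = r
          rw [cj_mul, hh r hr, hg r hr]
        inv_mem' := fun {g} hg r hr => by
          show cj (g : G)⁻¹ r = r
          conv_lhs => rw [← hg r hr, cj_inv_cj] }
    have hW : commutator ↥C ≤ W := by
      rw [commutator_def, Subgroup.commutator_le]
      intro g _ h _ r hr
      show cj ((g : G) * h * (g : G)⁻¹ * (h : G)⁻¹) r = r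
      have hr' := O.inv_mem hr
      have inv_same : ∀ w ∈ H, ∀ s ∈ O, cj w⁻¹ s = cj w s := by
        rintro w (hw | hw) s hs
        · conv_lhs => rw [← hw s hs, cj_inv_cj]
          exact (hw s hs).symm
        · rw [hw s hs]
          conv_lhs => rw [show s = cj w s⁻¹ by rw [hw _ (O.inv_mem hs), inv_inv], cj_inv_cj]
      have gi : (∀ r ∈ O, cj (g : G)⁻¹ r = cj (g : G) r) ∧ (∀ r ∈ O, cj (h : G)⁻¹ r = cj (h : G) r) :=
        ⟨inv_same _ (hCH g.2), inv_same _ (hCH h.2)⟩
      rw [cj_mul, cj_mul, cj_mul, gi.2 r hr]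
      rcases hCH g.2 with hg | hg <;> rcases hCH h.2 with hh | hh
      · rw [hh r hr, gi.1 r hr, hg r hr, hh r hr, hg r hr]
      · rw [hh r hr, gi.1 _ hr', hg _ hr', hh _ hr', inv_inv, hg r hr]
      · rw [hh r hr, gi.1 r hr, hg r hr, hh _ hr', hg _ hr', inv_inv]
      · rw [hh r hr, gi.1 _ hr', hg _ hr', inv_inv, hh r hr, hg _ hr', inv_inv]
    exact hW (cv.perf ▸ Subgroup.mem_top
      (⟨f, Subgroup.mem_centralizer_singleton_iff.2 rfl⟩ : ↥C))
  rw [Subgroup.eq_bot_iff_forall]
  intro r hr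
  have e1 := hfix r hr
  rw [S.core_inv hf ha hO f (Or.inl rfl) r hr] at e1
  exact odd_eq_one hO.odd hr (k := 1) (by
    rw [pow_one, pow_two]; exact inv_eq_iff_mul_eq_one.1 e1)

/-- The centraliser of the product of a commuting pair stabilises the pair. -/
theorem stab (hf : f ∈ D) (ha : a ∈ link D f) {g : G} (hg : Commute g (f * a)) :
    cj g f = f ∧ cj g a = a ∨ cj g f = a ∧ cj g a = f := by
  obtain ⟨O, hO⟩ := S.exists_core hf ha
  obtain ⟨r, hr, e⟩ := hO.comm g hg
  rw [S.core_bot hf ha hO, Subgroup.mem_bot] at hr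
  subst hr
  rw [one_mul] at e
  have e0 : f * g * f * g⁻¹ = f * cj g f := by simp only [cj, mul_assoc]
  rw [e0] at e
  rcases e with e | e
  · have h : cj g f = f := by
      rw [eq_inv_of_mul_eq_one_right e, S.inv_eq hf]
    exact Or.inl ⟨h, by rw [S.other_eq hf hg, h, ← mul_assoc, S.sq f hf, one_mul]⟩
  · have h : cj g f = a := mul_left_cancel e
    exact Or.inr ⟨h, by rw [S.other_eq hf hg, h, ha.2.2.eq, ← mul_assoc, S.sq a ha.1, one_mul]⟩

theorem stab_member (hf : f ∈ D) (ha : a ∈ link D f) {p : G} (hp : p ∈ D) (hpz : Commute p (f * a)) :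
    Commute p f ∧ Commute p a := by
  rcases S.stab hf ha hpz with ⟨h1, h2⟩ | ⟨h1, -⟩
  · exact ⟨(cj_eq_self_iff p f).1 h1, (cj_eq_self_iff p a).1 h2⟩
  · exact absurd h1 (S.noswap hf ha hp)

end Setting

end Cfsg.Agent.M22Trans
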