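import Cfsg.Agent.M22Trans.Init
import Cfsg.Agent.TTLink.M22Connected
import Cfsg.Agent.M22Trans.W.Kernel

/-!
The group has no solvable normal subgroup, the members commuting with one generate its centraliser,
and the action on the class is primitive.
-/

set_option autoImplicit false
set_option maxHeartbeats 1000000

namespace Cfsg.Agent.M22Trans

open Cfsg.Agent.TTLink Cfsg.Agent.ThreeTransp45 Cfsg.Agent.SporB

variable {G : Type*} [Group G] [Finite G] {D : Set G}

namespace Setting

variable (S : Setting D)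
include S

theorem cls {d : G} (hd : d ∈ D) : Cfsg.IsThreeTranspositionClass D := by
  refine ⟨S.set_three, ⟨d, hd, ?_⟩, S.closure_top hd⟩
  ext y
  refine ⟨fun hy => ?_, fun hy => ?_⟩
  · obtain ⟨g, hg⟩ := S.cl d hd y hy; exact isConj_iff.2 ⟨g, hg⟩
  · obtain ⟨g, hg⟩ := isConj_iff.1 hy; exact hg ▸ S.inv' g d hd

/-- The link generates the centraliser. -/
theorem closure_link {a : G} (ha : a ∈ D) :
    Subgroup.closure (link D a) = Subgroup.centralizer ({a} : Set G) := by
  let C := Subgroup.centralizer ({a} : Set G)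
  set W := Subgroup.closure (link D a)
  have hle : W ≤ C := (Subgroup.closure_le _).2 fun b hb =>
    Subgroup.mem_centralizer_singleton_iff.2 hb.2.2.eq.symm
  refine le_antisymm hle (S.centralizer_le ha ?_ fun b hb => Subgroup.subset_closure hb)
  have haW : ∀ w ∈ W, Commute w a := fun w hw => Subgroup.mem_centralizer_singleton_iff.1 (hle hw)
  -- every element of the centraliser is a member of the link group up to `a`
  have hmod : ∀ x : ↥C, (x : G) ∈ W ∨ (x : G) * a ∈ W := by
    let U : Subgroup G :=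
      { carrier := {x | Commute x a ∧ (x ∈ W ∨ x * a ∈ W)}
        one_mem' := ⟨Commute.one_left a, Or.inl W.one_mem⟩
        mul_mem' := by
          rintro x y ⟨cx, hx⟩ ⟨cy, hy⟩
          refine ⟨cx.mul_left cy, ?_⟩
          rcases hx with hx | hx <;> rcases hy with hy | hy
          · exact Or.inl (W.mul_mem hx hy)
          · right; rw [mul_assoc]; exact W.mul_mem hx hy
          · right; rw [mul_assoc, cy.eq, ← mul_assoc]; exact W.mul_mem hx hy
          · left
            have := W.mul_mem hx hy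
            rwa [mul_assoc x a, ← mul_assoc a y, ← cy.eq, mul_assoc y a, S.sq a ha, mul_one] at this
        inv_mem' := by
          rintro x ⟨cx, hx⟩
          refine ⟨cx.inv_left, hx.imp W.inv_mem fun h => ?_⟩
          have := W.inv_mem h
          rwa [mul_inv_rev, S.inv_eq ha, ← cx.inv_left.eq] at this }
    intro x
    exact (S.centralizer_le (H := U) ha ⟨Commute.refl a, Or.inr (by rw [S.sq a ha]; exact W.one_mem)⟩
      (fun b hb => ⟨hb.2.2.symm, Or.inl (Subgroup.subset_closure hb)⟩) x.2).2
  obtain ⟨cv⟩ := S.cov a ha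
  have hW : commutator ↥C ≤ W.subgroupOf C := by
    rw [commutator_def, Subgroup.commutator_le]
    intro g _ h _
    rw [Subgroup.mem_subgroupOf]
    show (g : G) * h * (g : G)⁻¹ * (h : G)⁻¹ ∈ W
    have cg : Commute (g : G) a := Subgroup.mem_centralizer_singleton_iff.1 g.2
    have ch : Commute (h : G) a := Subgroup.mem_centralizer_singleton_iff.1 h.2
    have key : ∀ x y : G, Commute x a → Commute y a →
        (x * a) * y * (x * a)⁻¹ * y⁻¹ = x * y * x⁻¹ * y⁻¹ ∧
          x * (y * a) * x⁻¹ * (y * a)⁻¹ = x * y * x⁻¹ * y⁻¹ := fun x y hx hy => by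
      constructor
      · rw [mul_inv_rev, mul_assoc x a y, ← hy.eq]; group
      · rw [mul_inv_rev, show x * (y * a) * x⁻¹ = x * y * (a * x⁻¹) by simp only [mul_assoc],
          ← hx.inv_left.eq]
        group
    have base : ∀ x y : G, x ∈ W → y ∈ W → x * y * x⁻¹ * y⁻¹ ∈ W := fun x y hx hy =>
      W.mul_mem (W.mul_mem (W.mul_mem hx hy) (W.inv_mem hx)) (W.inv_mem hy)
    rcases hmod g with hg | hg <;> rcases hmod h with hh | hh
    · exact base _ _ hg hh
    · rw [← (key _ _ cg ch).2]; exact base _ _ hg hh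
    · rw [← (key _ _ cg ch).1]; exact base _ _ hg hh
    · rw [← (key _ _ cg ch).1, ← (key _ _ (cg.mul_left (Commute.refl a)) ch).2]; exact base _ _ hg hh
  exact hW (cv.perf ▸ Subgroup.mem_top (⟨a, Subgroup.mem_centralizer_singleton_iff.2 rfl⟩ : ↥C))

/-- The link group modulo its centre. -/
theorem quot {a : G} (ha : a ∈ D) :
    Nonempty ((↥(Subgroup.closure (link D a)) ⧸ Subgroup.center ↥(Subgroup.closure (link D a))) ≃* P) := by
  have hW := S.closure_link ha
  let W := Subgroup.closure (link D a)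
  have hc : ∀ w : ↥W, Commute (w : G) a := fun w => by
    have h := w.2
    have h' : (w : G) ∈ Subgroup.centralizer ({a} : Set G) := hW ▸ h
    exact Subgroup.mem_centralizer_singleton_iff.1 h'
  let ρ : ↥W →* P :=
    { toFun := fun w => S.im ha (w : G)
      map_one' := S.im_one ha
      map_mul' := fun v w => S.im_mul ha (hc v) (hc w) }
  have hs : Function.Surjective ρ := fun q => by
    obtain ⟨x, hx, e⟩ := S.im_surj ha q
    exact ⟨⟨x, by rw [show W = Subgroup.closure (link D a) from rfl, hW]; exact Subgroup.mem_centralizer_singleton_iff.2 hx.eq⟩, e⟩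
  have hker : ρ.ker = Subgroup.center ↥W := by
    refine le_antisymm (fun w hw => Subgroup.mem_center_iff.2 fun v => Subtype.ext ?_) fun w hw => ?_
    · show (v : G) * w = w * v
      rcases (S.im_eq_one ha (hc w)).1 hw with e | e <;> rw [e]
      · rw [one_mul, mul_one]
      · exact (hc v).eq
    · have : ρ w ∈ Subgroup.center P := Subgroup.mem_center_iff.2 fun q => by
        obtain ⟨v, rfl⟩ := hs q
        rw [← map_mul, ← map_mul, Subgroup.mem_center_iff.1 hw v]
      rwa [psu_center hF4, Subgroup.mem_bot] at this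
  exact ⟨(QuotientGroup.quotientMulEquivOfEq hker.symm).trans
    (QuotientGroup.quotientKerEquivOfSurjective ρ hs)⟩

/-- No non-trivial solvable normal subgroup. -/
theorem noSolv {d : G} (hd : d ∈ D) : NoSolv G := by
  intro N hN hs
  haveI := hN
  haveI := hs
  set C := Subgroup.centralizer ({d} : Set G) with hC
  obtain ⟨cv⟩ := S.cov d hd
  -- nothing in the centraliser
  have h1 : ∀ x ∈ N, Commute x d → x = 1 ∨ x = d := by
    intro x hx hxd
    have hsolv : Group.IsSolvable ↥(N.subgroupOf C) :=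
      Group.isSolvable_of_isSolvable_injective (f := (C.subtype.comp (N.subgroupOf C).subtype).codRestrict N
        fun y => y.2) fun u v e => by
        have := congrArg Subtype.val e
        exact Subtype.ext (Subtype.ext this)
    haveI := hsolv
    have hb : (N.subgroupOf C).map cv.π = ⊥ := psu_noSolv hF4 _
      (Subgroup.Normal.map inferInstance _ cv.surj)
      (Group.isSolvable_of_surjective (f := cv.π.subgroupMap (N.subgroupOf C))
        (cv.π.subgroupMap_surjective _))
    have : cv.π ⟨x, Subgroup.mem_centralizer_singleton_iff.2 hxd.eq⟩ ∈ (N.subgroupOf C).map cv.π :=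
      ⟨_, hx, rfl⟩
    rw [hb, Subgroup.mem_bot] at this
    exact (cv.ker _).1 this
  have hdN : d ∉ N := by
    intro hdN
    have htop : N = ⊤ := top_le_iff.1 (S.closure_top hd ▸ (Subgroup.closure_le _).2 fun y hy => by
      obtain ⟨g, hg⟩ := S.cl d hd y hy
      exact hg ▸ hN.conj_mem d hdN g)
    subst htop
    obtain ⟨b, hb⟩ := S.link_nonempty hd
    rcases h1 b (Subgroup.mem_top b) hb.2.2.symm with e | e
    · exact S.ne_one hb.1 e
    · exact hb.2.1 e
  have hfree : ∀ x ∈ N, Commute d x → x = 1 := fun x hx hc =>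
    (h1 x hx hc.symm).resolve_right fun e => hdN (e ▸ hx)
  -- `d` inverts the subgroup
  have hinv : ∀ x ∈ N, cj d x = x⁻¹ := by
    let φ : ↥N → ↥N := fun r => r⁻¹ * ⟨cj d r, hN.conj_mem r r.2 d⟩
    have hinj : Function.Injective φ := by
      intro r s h
      have h' : (r : G)⁻¹ * cj d r = (s : G)⁻¹ * cj d s := congrArg Subtype.val h
      have e : cj d ((s : G) * (r : G)⁻¹) = (s : G) * (r : G)⁻¹ := by
        rw [cj_map_mul, cj_map_inv]
        calc cj d s * (cj d r)⁻¹ = (s : G) * ((s : G)⁻¹ * cj d s) * (cj d r)⁻¹ := by group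
          _ = (s : G) * ((r : G)⁻¹ * cj d r) * (cj d r)⁻¹ := by rw [h']
          _ = _ := by group
      exact Subtype.ext (mul_inv_eq_one.1 (hfree _ (N.mul_mem s.2 (N.inv_mem r.2))
        ((cj_eq_self_iff d _).1 e))).symm
    intro x hx
    obtain ⟨r, hr⟩ := Finite.surjective_of_injective hinj ⟨x, hx⟩
    have hr' : (r : G)⁻¹ * cj d r = x := congrArg Subtype.val hr
    rw [← hr', cj_map_mul, cj_map_inv, ← cj_mul, S.sq d hd, cj_one, mul_inv_rev, inv_inv]
  have hall : ∀ a ∈ D, ∀ x ∈ N, cj a x = x⁻¹ := by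
    intro a ha x hx
    obtain ⟨g, rfl⟩ := S.cl d hd a ha
    have h := hinv _ (hN.conj_mem x hx g⁻¹)
    have e : g⁻¹ * x * g⁻¹⁻¹ = cj g⁻¹ x := rfl
    rw [e] at h
    have h' := congrArg (cj g) h
    rw [← cj_mul] at h'
    rw [show cj (cj g d) x = cj (g * d) (cj g⁻¹ x) by simp [cj, mul_assoc], h', cj_map_inv, cj_cj_inv]
  rw [Subgroup.eq_bot_iff_forall]
  intro x hx
  -- the centraliser of `d` centralises, hence so does `d`
  let U : Subgroup G :=
    { carrier := {g | (∀ r ∈ N, cj g r = r) ∨ ∀ r ∈ N, cj g r = r⁻¹}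
      one_mem' := Or.inl fun r _ => cj_one r
      mul_mem' := by
        rintro g h (hg | hg) (hh | hh)
        · exact Or.inl fun r hr => by rw [cj_mul, hh r hr, hg r hr]
        · exact Or.inr fun r hr => by rw [cj_mul, hh r hr, hg _ (N.inv_mem hr)]
        · exact Or.inr fun r hr => by rw [cj_mul, hh r hr, hg r hr]
        · exact Or.inl fun r hr => by rw [cj_mul, hh r hr, hg _ (N.inv_mem hr), inv_inv]
      inv_mem' := by
        rintro g (hg | hg)
        · exact Or.inl fun r hr => by conv_lhs => rw [← hg r hr, cj_inv_cj]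
        · exact Or.inr fun r hr => by
            conv_lhs => rw [show r = cj g r⁻¹ by rw [hg _ (N.inv_mem hr), inv_inv], cj_inv_cj] }
  have hCU : C ≤ U := S.centralizer_le hd (Or.inr (hall d hd)) fun c hc => Or.inr (hall c hc.1)
  let K : Subgroup ↥C :=
    { carrier := {w | ∀ r ∈ N, cj (w : G) r = r}
      one_mem' := fun r _ => cj_one r
      mul_mem' := fun {g h} hg hh r hr => by
        show cj ((g : G) * h) r = r
        rw [cj_mul, hh r hr, hg r hr]
      inv_mem' := fun {g} hg r hr => by
        show cj (g : G)⁻¹ r = r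
        conv_lhs => rw [← hg r hr, cj_inv_cj] }
  have hK : commutator ↥C ≤ K := by
    rw [commutator_def, Subgroup.commutator_le]
    intro g _ h _ r hr
    show cj ((g : G) * h * (g : G)⁻¹ * (h : G)⁻¹) r = r
    have inv_same : ∀ w ∈ U, ∀ s ∈ N, cj w⁻¹ s = cj w s := by
      rintro w (hw | hw) s hs
      · conv_lhs => rw [← hw s hs, cj_inv_cj]
        exact (hw s hs).symm
      · rw [hw s hs]
        conv_lhs => rw [show s = cj w s⁻¹ by rw [hw _ (N.inv_mem hs), inv_inv], cj_inv_cj]
    have hr' := N.inv_mem hr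
    rw [cj_mul, cj_mul, cj_mul, inv_same _ (hCU h.2) r hr]
    rcases hCU g.2 with hg | hg <;> rcases hCU h.2 with hh | hh
    · rw [hh r hr, inv_same _ (hCU g.2) r hr, hg r hr, hh r hr, hg r hr]
    · rw [hh r hr, inv_same _ (hCU g.2) _ hr', hg _ hr', hh _ hr', inv_inv, hg r hr]
    · rw [hh r hr, inv_same _ (hCU g.2) r hr, hg r hr, hh _ hr', hg _ hr', inv_inv]
    · rw [hh r hr, inv_same _ (hCU g.2) _ hr', hg _ hr', inv_inv, hh r hr, hg _ hr', inv_inv]
  have hd1 : cj d x = x :=
    hK (cv.perf ▸ Subgroup.mem_top (⟨d, Subgroup.mem_centralizer_singleton_iff.2 rfl⟩ : ↥C)) x hx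
  exact hfree x hx ((cj_eq_self_iff d x).1 hd1)

theorem hyp {d : G} (hd : d ∈ D) : M22Hyp D :=
  ⟨S.cls hd, S.noSolv hd, fun _ ha => ⟨GFour25.F4, inferInstance, inferInstance, hF4, S.quot ha⟩⟩

theorem prim {d : G} (hd : d ∈ D) : W.M22Prim D :=
  ⟨group_of_data (data_of_class (S.cls hd)) (S.cls hd).2.2, (S.hyp hd).primitive, S.hyp hd⟩

end Setting

end Cfsg.Agent.M22Trans
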