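import Cfsg.Agent.M22Trans.Unit

/-!
A class of involutions all of whose centralisers are double covers of `PSU(6,2)` over the
transvections: local facts, and no member interchanges two commuting members.
-/

set_option autoImplicit false
set_option maxHeartbeats 1000000

namespace Cfsg.Agent.M22Trans

open Cfsg.Agent.TTLink Cfsg.Agent.ThreeTransp45 Cfsg.Agent.SporB

variable {G : Type*} [Group G] {D : Set G}

/-- The hypothesis. -/
structure Setting (D : Set G) : Prop where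
  sq : ∀ a ∈ D, a * a = 1
  one_not_mem : (1 : G) ∉ D
  inv' : ∀ g, ∀ x ∈ D, cj g x ∈ D
  cl : ∀ a ∈ D, ∀ b ∈ D, ∃ g, cj g a = b
  cov : ∀ a ∈ D, Nonempty (Cover D hF4 a)

namespace Setting

variable (S : Setting D)
include S

theorem inv_eq {a : G} (ha : a ∈ D) : a⁻¹ = a := inv_eq_of_mul_eq_one_right (S.sq a ha)

theorem ne_one {a : G} (ha : a ∈ D) : a ≠ 1 := fun e => S.one_not_mem (e ▸ ha)

theorem cj_eq {a : G} (ha : a ∈ D) (x : G) : cj a x = a * x * a := by rw [cj, S.inv_eq ha]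

theorem link_cj {g a b : G} (h : b ∈ link D a) : cj g b ∈ link D (cj g a) :=
  ⟨S.inv' g b h.1, fun e => h.2.1 (cj_injective g e), (cj_commute_iff g a b).2 h.2.2⟩

omit S in
theorem link_symm {a b : G} (ha : a ∈ D) (h : b ∈ link D a) : a ∈ link D b :=
  ⟨ha, h.2.1.symm, h.2.2.symm⟩

/-- The image at a member. -/
noncomputable def im {a : G} (ha : a ∈ D) (x : G) : P :=
  @dite _ (Commute x a) (_root_.Classical.propDecidable _)
    (fun h => (S.cov a ha).some.π ⟨x, Subgroup.mem_centralizer_singleton_iff.2 h.eq⟩) fun _ => 1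

section Im

variable {a : G} (ha : a ∈ D)

theorem im_eq {x : G} (hx : Commute x a) :
    S.im ha x = (S.cov a ha).some.π ⟨x, Subgroup.mem_centralizer_singleton_iff.2 hx.eq⟩ := dif_pos hx

theorem im_mul {x y : G} (hx : Commute x a) (hy : Commute y a) :
    S.im ha (x * y) = S.im ha x * S.im ha y := by
  rw [S.im_eq ha hx, S.im_eq ha hy, S.im_eq ha (hx.mul_left hy), ← map_mul]
  rfl

theorem im_one : S.im ha 1 = 1 := by
  rw [S.im_eq ha (Commute.one_left a), ← map_one (S.cov a ha).some.π]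
  rfl

theorem im_inv {x : G} (hx : Commute x a) : S.im ha x⁻¹ = (S.im ha x)⁻¹ := by
  refine eq_inv_of_mul_eq_one_left ?_
  rw [← S.im_mul ha hx.inv_left hx, inv_mul_cancel, S.im_one]

theorem im_pow {x : G} (hx : Commute x a) (n : ℕ) : S.im ha (x ^ n) = S.im ha x ^ n := by
  induction n with
  | zero => rw [pow_zero, pow_zero, S.im_one]
  | succ n ih => rw [pow_succ, pow_succ, S.im_mul ha (hx.pow_left n) hx, ih]

theorem im_eq_one {x : G} (hx : Commute x a) : S.im ha x = 1 ↔ x = 1 ∨ x = a := by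
  rw [S.im_eq ha hx]; exact (S.cov a ha).some.ker _

theorem im_self : S.im ha a = 1 := (S.im_eq_one ha (Commute.refl a)).2 (Or.inr rfl)

theorem im_mem {b : G} (hb : b ∈ link D a) : S.im ha b ∈ T := by
  rw [S.im_eq ha hb.2.2.symm]
  exact (S.cov a ha).some.map_mem hb

theorem im_inj {b c : G} (hb : b ∈ link D a) (hc : c ∈ link D a) (h : S.im ha b = S.im ha c) :
    b = c := by
  rw [S.im_eq ha hb.2.2.symm, S.im_eq ha hc.2.2.symm] at h
  exact congrArg Subtype.val ((S.cov a ha).some.inj hb hc h)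

theorem im_refl {x c : G} (hx : Commute x a) (hc : c ∈ link D a)
    (h : Commute (S.im ha x) (S.im ha c)) : Commute x c := by
  rw [S.im_eq ha hx, S.im_eq ha hc.2.2.symm] at h
  exact (S.cov a ha).some.refl _ _ hc h

theorem im_commute {x y : G} (hx : Commute x a) (hy : Commute y a) (h : Commute x y) :
    Commute (S.im ha x) (S.im ha y) := by
  rw [commute_iff_eq, ← S.im_mul ha hx hy, ← S.im_mul ha hy hx, h.eq]

theorem exists_lift {q : P} (hq : q ∈ T) : ∃ b, b ∈ link D a ∧ S.im ha b = q := by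
  obtain ⟨c, hc, hcq⟩ := (S.cov a ha).some.exists_lift hq
  exact ⟨c, hc, by rw [S.im_eq ha hc.2.2.symm]; exact hcq⟩

theorem im_surj (q : P) : ∃ x, Commute x a ∧ S.im ha x = q := by
  obtain ⟨c, hc⟩ := (S.cov a ha).some.surj q
  exact ⟨c, Subgroup.mem_centralizer_singleton_iff.1 c.2,
    (S.im_eq ha (Subgroup.mem_centralizer_singleton_iff.1 c.2)).trans hc⟩

end Im

variable {a : G}

theorem two_ne_one {a b : G} (hb : b ∈ D) (hne : a ≠ b) : a * b ≠ 1 := fun e =>
  hne (by rw [mul_eq_one_iff_eq_inv.1 e, S.inv_eq hb])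

theorem two_not_mem {a b : G} (ha : a ∈ D) (hb : b ∈ link D a) : a * b ∉ D := by
  intro h
  have hc : a * b ∈ link D a := ⟨h, fun e => S.ne_one hb.1 (mul_eq_left.1 e),
    (Commute.refl a).mul_right hb.2.2⟩
  have := S.im_inj ha hc hb (by rw [S.im_mul ha (Commute.refl a) hb.2.2.symm, S.im_self, one_mul])
  exact S.ne_one ha (mul_eq_right.1 this)

theorem four_ne_one {a b c e : G} (ha : a ∈ D) (hb : b ∈ link D a) (hc : c ∈ link D a)
    (he : e ∈ link D a) (hbc : b ≠ c) : a * b * c * e ≠ 1 := by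
  intro h
  have h' := congrArg (S.im ha) h
  rw [S.im_mul ha (((Commute.refl a).mul_left hb.2.2.symm).mul_left hc.2.2.symm) he.2.2.symm,
    S.im_mul ha ((Commute.refl a).mul_left hb.2.2.symm) hc.2.2.symm,
    S.im_mul ha (Commute.refl a) hb.2.2.symm, S.im_self, one_mul, S.im_one] at h'
  have h2 := T_two (S.im_mem ha hb) (S.im_mem ha hc) fun x => hbc (S.im_inj ha hb hc x)
  rw [mul_eq_one_iff_eq_inv, T_data.inv_eq (S.im_mem ha he)] at h'
  exact h2.1 (h' ▸ S.im_mem ha he)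

/-- Two members with a common neighbour commute or their product has order three. -/
theorem near_three {a b c : G} (ha : a ∈ D) (hb : b ∈ link D a) (hc : c ∈ link D a)
    (hn : ¬ Commute b c) : (b * c) ^ 3 = 1 := by
  have hbc : Commute (b * c) a := hb.2.2.symm.mul_left hc.2.2.symm
  rcases T_data.set.2 _ (S.im_mem ha hb) _ (S.im_mem ha hc) with e | e
  · refine absurd (S.im_refl ha hb.2.2.symm hc ?_) hn
    rw [pow_two, mul_eq_one_iff_eq_inv, mul_inv_rev, T_data.inv_eq (S.im_mem ha hb),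
      T_data.inv_eq (S.im_mem ha hc)] at e
    exact e
  rw [← S.im_mul ha hb.2.2.symm hc.2.2.symm, ← S.im_pow ha hbc] at e
  refine ((S.im_eq_one ha (hbc.pow_left 3)).1 e).resolve_right fun h3 => ?_
  have m1 : b * c * b ∈ link D a := by
    have h := S.link_cj (g := b) hc
    rwa [(cj_eq_self_iff b a).2 hb.2.2.symm, S.cj_eq hb.1] at h
  have m2 : c * b * c ∈ link D a := by
    have h := S.link_cj (g := c) hb
    rwa [(cj_eq_self_iff c a).2 hc.2.2.symm, S.cj_eq hc.1] at h
  have key : b * c * b = a * (c * b * c) := by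
    rw [← h3]
    simp only [pow_succ, pow_zero, one_mul, mul_assoc]
    rw [← mul_assoc c c, S.sq c hc.1, one_mul, ← mul_assoc b b, S.sq b hb.1, one_mul, S.sq c hc.1,
      mul_one]
  exact S.ne_one ha (mul_eq_right.1 ((key.symm.trans (S.im_inj ha m1 m2 (by
    rw [key, S.im_mul ha (Commute.refl a) m2.2.2.symm, S.im_self, one_mul])))))

/-- The common neighbours of a commuting pair. -/
def _root_.Cfsg.Agent.M22Trans.near (D : Set G) (f a : G) : Set G := link D f ∩ link D a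

/-- The class of a common neighbour. -/
def _root_.Cfsg.Agent.M22Trans.cls (D : Set G) (f a b : G) : Set G :=
  {y | y ∈ near D f a ∧ Commute y b ∧
    ∀ x ∈ D, Commute x f → Commute x a → Commute x b → Commute x y}

theorem cls_iff {f a b y : G} (hf : f ∈ D) (ha : a ∈ link D f) (hb : b ∈ near D f a)
    (hy : y ∈ near D f a) :
    y ∈ cls D f a b ↔ OnLine (S.im hf a) (S.im hf b) (S.im hf y) := by
  have fa := ha.2.2.symm
  have fb := hb.1.2.2.symm
  have fy := hy.1.2.2.symm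
  constructor
  · rintro ⟨-, hyb, hall⟩
    refine ⟨S.im_mem hf hy.1, S.im_commute hf fy fa hy.2.2.2.symm, S.im_commute hf fy fb hyb, ?_⟩
    intro q hq h1 h2
    obtain ⟨x, hx, rfl⟩ := S.exists_lift hf hq
    exact S.im_commute hf hx.2.2.symm fy
      (hall x hx.1 hx.2.2.symm (S.im_refl hf hx.2.2.symm ha h1) (S.im_refl hf hx.2.2.symm hb.1 h2))
  · rintro ⟨-, -, hyb, hall⟩
    refine ⟨hy, S.im_refl hf fy hb.1 hyb, fun x hx xf xa xb => ?_⟩
    by_cases e : x = f
    · rw [e]; exact hy.1.2.2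
    have hxl : x ∈ link D f := ⟨hx, e, xf.symm⟩
    exact S.im_refl hf xf hy.1 (hall _ (S.im_mem hf hxl) (S.im_commute hf xf fa xa)
      (S.im_commute hf xf fb xb))

theorem self_mem_cls {f a b : G} (hb : b ∈ near D f a) : b ∈ cls D f a b :=
  ⟨hb, Commute.refl b, fun _ _ _ _ h => h⟩

variable {f b : G}

theorem cls_card (hf : f ∈ D) (ha : a ∈ link D f) (hb : b ∈ near D f a) :
    (cls D f a b).ncard = 4 := by
  have pa := S.im_mem hf ha
  have pb := S.im_mem hf hb.1
  have hne : S.im hf a ≠ S.im hf b := fun e => hb.2.2.1 (S.im_inj hf ha hb.1 e).symm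
  have hc := S.im_commute hf ha.2.2.symm hb.1.2.2.symm hb.2.2.2
  rw [← line_card pa pb hne hc]
  refine Set.ncard_congr (fun y _ => S.im hf y) (fun y hy => ⟨fun e => hy.1.2.2.1
    (S.im_inj hf hy.1.1 ha e), (S.cls_iff hf ha hb hy.1).1 hy⟩)
    (fun y y' hy hy' e => S.im_inj hf hy.1.1 hy'.1.1 e) ?_
  rintro q ⟨hqa, hq⟩
  obtain ⟨y, hy, rfl⟩ := S.exists_lift hf hq.1
  have hyn : y ∈ near D f a :=
    ⟨hy, hy.1, fun e => hqa (by rw [e]), (S.im_refl hf hy.2.2.symm ha hq.2.1).symm⟩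
  exact ⟨y, (S.cls_iff hf ha hb hyn).2 hq, rfl⟩

theorem cls_eq (hf : f ∈ D) (ha : a ∈ link D f) (hb : b ∈ near D f a) {y : G}
    (hy : y ∈ cls D f a b) : cls D f a y = cls D f a b := by
  have pa := S.im_mem hf ha
  have pb := S.im_mem hf hb.1
  have hne : S.im hf a ≠ S.im hf b := fun e => hb.2.2.1 (S.im_inj hf ha hb.1 e).symm
  have hc := S.im_commute hf ha.2.2.symm hb.1.2.2.symm hb.2.2.2
  have hya : S.im hf y ≠ S.im hf a := fun e => hy.1.2.2.1 (S.im_inj hf hy.1.1 ha e)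
  have key := line_eq pa pb hne hc ((S.cls_iff hf ha hb hy.1).1 hy) hya
  ext w
  refine ⟨fun hw => ?_, fun hw => ?_⟩
  · exact (S.cls_iff hf ha hb hw.1).2 ((key _).1 ((S.cls_iff hf ha hy.1 hw.1).1 hw))
  · exact (S.cls_iff hf ha hy.1 hw.1).2 ((key _).2 ((S.cls_iff hf ha hb hw.1).1 hw))

theorem near_cj (g : G) : cj g '' near D f a = near D (cj g f) (cj g a) := by
  ext z
  constructor
  · rintro ⟨y, hy, rfl⟩; exact ⟨S.link_cj hy.1, S.link_cj hy.2⟩
  · intro hz
    refine ⟨cj g⁻¹ z, ⟨?_, ?_⟩, cj_cj_inv g z⟩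
    · have h := S.link_cj (g := g⁻¹) hz.1; rwa [cj_inv_cj] at h
    · have h := S.link_cj (g := g⁻¹) hz.2; rwa [cj_inv_cj] at h

theorem cls_cj_mem {g : G} (hg : cj g f = f ∧ cj g a = a ∨ cj g f = a ∧ cj g a = f) {y : G}
    (hy : y ∈ cls D f a b) : cj g y ∈ cls D f a (cj g b) := by
  obtain ⟨⟨h1, h2⟩, hyb, hall⟩ := hy
  refine ⟨?_, (cj_commute_iff g y b).2 hyb, fun x hx xf xa xb => ?_⟩
  · rcases hg with ⟨e1, e2⟩ | ⟨e1, e2⟩
    · have a1 := S.link_cj (g := g) h1
      have a2 := S.link_cj (g := g) h2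
      rw [e1] at a1; rw [e2] at a2
      exact ⟨a1, a2⟩
    · have a1 := S.link_cj (g := g) h1
      have a2 := S.link_cj (g := g) h2
      rw [e1] at a1; rw [e2] at a2
      exact ⟨a2, a1⟩
  · have hxb : Commute (cj g⁻¹ x) b := (cj_commute_iff g _ _).1 (by rwa [cj_cj_inv])
    have hxf : Commute (cj g⁻¹ x) f := (cj_commute_iff g _ _).1 (by
      rw [cj_cj_inv]; rcases hg with ⟨e, -⟩ | ⟨e, -⟩ <;> rw [e] <;> assumption)
    have hxa : Commute (cj g⁻¹ x) a := (cj_commute_iff g _ _).1 (by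
      rw [cj_cj_inv]; rcases hg with ⟨-, e⟩ | ⟨-, e⟩ <;> rw [e] <;> assumption)
    have := (cj_commute_iff g _ _).2 (hall _ (S.inv' g⁻¹ x hx) hxf hxa hxb)
    rwa [cj_cj_inv] at this

theorem cls_image {g : G} (hg : cj g f = f ∧ cj g a = a ∨ cj g f = a ∧ cj g a = f) (b : G) :
    cj g '' cls D f a b = cls D f a (cj g b) := by
  refine Set.eq_of_subset_of_subset (by rintro _ ⟨y, hy, rfl⟩; exact S.cls_cj_mem hg hy) fun z hz => ?_
  refine ⟨cj g⁻¹ z, ?_, cj_cj_inv g z⟩
  have hg' : cj g⁻¹ f = f ∧ cj g⁻¹ a = a ∨ cj g⁻¹ f = a ∧ cj g⁻¹ a = f := by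
    rcases hg with ⟨e1, e2⟩ | ⟨e1, e2⟩
    · exact Or.inl ⟨(congrArg (cj g⁻¹) e1.symm).trans (cj_inv_cj g f),
        (congrArg (cj g⁻¹) e2.symm).trans (cj_inv_cj g a)⟩
    · exact Or.inr ⟨(congrArg (cj g⁻¹) e2.symm).trans (cj_inv_cj g a),
        (congrArg (cj g⁻¹) e1.symm).trans (cj_inv_cj g f)⟩
  have := S.cls_cj_mem hg' hz
  rwa [cj_inv_cj] at this

theorem near_card (hf : f ∈ D) (ha : a ∈ link D f) : (near D f a).ncard = 180 := by
  rw [← UnitarySix.link_card hF4 (S.im_mem hf ha)]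
  refine Set.ncard_congr (fun y _ => S.im hf y) (fun y hy => ⟨S.im_mem hf hy.1, fun e =>
    hy.2.2.1 (S.im_inj hf hy.1 ha e), S.im_commute hf ha.2.2.symm hy.1.2.2.symm hy.2.2.2⟩)
    (fun y y' hy hy' e => S.im_inj hf hy.1 hy'.1 e) ?_
  rintro q ⟨hq, hqa, hc⟩
  obtain ⟨y, hy, rfl⟩ := S.exists_lift hf hq
  exact ⟨y, ⟨hy, hy.1, fun e => hqa (by rw [e]), S.im_refl hf ha.2.2.symm hy hc⟩, rfl⟩

theorem swap_prod {p x x' : G} (hp : p ∈ D) (hx : x * x = 1) (hx' : cj p x = x')
    (hc : Commute x x') : p * (x * x') ∈ D ∧ Commute p (p * (x * x')) := by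
  have h' : p * x * p = x' := by rw [← S.cj_eq hp]; exact hx'
  have e : p * (x * x') = cj (p * x) p := by
    rw [cj, mul_inv_rev, inv_eq_of_mul_eq_one_right hx, S.inv_eq hp, ← h']
    simp only [mul_assoc]
  refine ⟨e ▸ S.inv' _ p hp, (Commute.refl p).mul_right ?_⟩
  refine (cj_eq_self_iff p _).1 ?_
  have h'' : cj p x' = x := by rw [← hx', ← cj_mul, S.sq p hp, cj_one]
  rw [cj_map_mul, hx', h'']
  exact hc.eq.symm

variable [Finite G]

/-- No member interchanges two commuting members. -/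
theorem noswap (hf : f ∈ D) (ha : a ∈ link D f) {p : G} (hp : p ∈ D) : cj p f ≠ a := by
  classical
  intro hpf
  have hpa : cj p a = f := by rw [← hpf, ← cj_mul, S.sq p hp, cj_one]
  have hnc : ¬ Commute p f := fun h => ha.2.1 (hpf.symm.trans ((cj_eq_self_iff p f).2 h))
  have hg : cj p f = f ∧ cj p a = a ∨ cj p f = a ∧ cj p a = f := Or.inr ⟨hpf, hpa⟩
  -- a fixed class
  set N := (Set.toFinite (near D f a)).toFinset with hN
  have hmem : ∀ y, y ∈ N ↔ y ∈ near D f a := fun y => Set.Finite.mem_toFinset _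
  have hNc : N.card = 180 := by rw [hN, ← Set.ncard_eq_toFinset_card]; exact S.near_card hf ha
  set K := N.image (cls D f a) with hK
  have hKc : K.card = 45 := by
    have h := Finset.card_eq_sum_card_image (cls D f a) N
    rw [Finset.sum_const_nat (m := 4) fun c hc => ?_, hNc, ← hK] at h
    · omega
    obtain ⟨b, hb, rfl⟩ := Finset.mem_image.1 hc
    rw [hmem] at hb
    rw [← S.cls_card hf ha hb, ← Set.ncard_coe_finset]
    congr 1
    ext y
    simp only [Finset.coe_filter, hmem, Set.mem_setOf_eq]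
    exact ⟨fun h => h.2 ▸ S.self_mem_cls h.1, fun h => ⟨h.1, S.cls_eq hf ha hb h⟩⟩
  have hσK : ∀ c ∈ K, cj p '' c ∈ K := by
    intro c hc
    obtain ⟨b, hb, rfl⟩ := Finset.mem_image.1 hc
    rw [hmem] at hb
    refine Finset.mem_image.2 ⟨cj p b, (hmem _).2 ?_, (S.cls_image hg b).symm⟩
    exact (S.cls_cj_mem hg (S.self_mem_cls hb)).1
  have hinv : ∀ c : Set G, cj p '' (cj p '' c) = c := by
    intro c; rw [Set.image_image]; simp [← cj_mul, S.sq p hp]
  obtain ⟨c, hc, hcfix⟩ : ∃ c ∈ K, cj p '' c = c := by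
    by_contra h
    push Not at h
    have h0 : ∑ _c ∈ K, (1 : ZMod 2) = 0 :=
      Finset.sum_involution (fun c _ => cj p '' c) (fun _ _ => by decide) (fun c hc _ => h c hc)
        hσK fun c _ => hinv c
    rw [Finset.sum_const, hKc] at h0
    revert h0; decide
  obtain ⟨b, hb, rfl⟩ := Finset.mem_image.1 hc
  rw [hmem] at hb
  set b' := cj p b with hb'
  have hb'c : b' ∈ cls D f a b := hcfix ▸ ⟨b, S.self_mem_cls hb, rfl⟩
  by_cases hbb : b' = b
  · -- two members of the link of `b`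
    have hfb : f ∈ link D b := link_symm hf hb.1
    have hpb : p ∈ link D b :=
      ⟨hp, fun e => hnc (e ▸ hb.1.2.2.symm), ((cj_eq_self_iff p b).1 hbb).symm⟩
    have h3 := S.near_three hb.1.1 hfb hpb fun h => hnc h.symm
    have e3 : (f * p) ^ 3 = a * p := by
      have h' : p * f * p = a := by rw [← S.cj_eq hp]; exact hpf
      calc (f * p) ^ 3 = f * (p * f * p) * f * p := by
            simp only [pow_succ, pow_zero, one_mul, mul_assoc]
        _ = a * (f * f) * p := by rw [h', ha.2.2.eq]; simp only [mul_assoc]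
        _ = a * p := by rw [S.sq f hf, mul_one]
    rw [e3] at h3
    have : a = p := by rw [mul_eq_one_iff_eq_inv.1 h3, S.inv_eq hp]
    exact hnc (this ▸ ha.2.2.symm)
  -- three members of the link of `p`
  have hfa := ha.2.2
  have fb := hb.1.2.2
  have ab := hb.2.2.2
  have fb' := hb'c.1.1.2.2
  have ab' := hb'c.1.2.2.2
  have bb' : Commute b b' := hb'c.2.1.symm
  obtain ⟨m1, c1⟩ := S.swap_prod hp (S.sq f hf) hpf hfa
  obtain ⟨m2, c2⟩ := S.swap_prod hp (S.sq b hb.1.1) hb'.symm bb'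
  have hx : f * b * (f * b) = 1 := by
    calc f * b * (f * b) = f * (b * f) * b := by simp only [mul_assoc]
      _ = f * f * (b * b) := by rw [← fb.eq]; simp only [mul_assoc]
      _ = 1 := by rw [S.sq f hf, S.sq b hb.1.1, mul_one]
  have hxx : Commute (f * b) (a * b') :=
    (hfa.mul_right fb').mul_left (ab.symm.mul_right bb')
  obtain ⟨m3, c3⟩ := S.swap_prod hp hx
    (show cj p (f * b) = a * b' by rw [cj_map_mul, hpf]) hxx
  set q1 := p * (f * a)
  set q2 := p * (b * b')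
  set q3 := p * (f * b * (a * b'))
  have hz1 : f * a ≠ 1 := S.two_ne_one ha.1 ha.2.1.symm
  have hz2 : b * b' ≠ 1 := S.two_ne_one hb'c.1.1.1 (Ne.symm hbb)
  have e12 : f * b * (a * b') = f * a * (b * b') := by
    calc f * b * (a * b') = f * (b * a) * b' := by simp only [mul_assoc]
      _ = _ := by rw [← ab.eq]; simp only [mul_assoc]
  have hz3 : f * b * (a * b') ≠ 1 := by
    rw [e12, ← mul_assoc]
    exact S.four_ne_one hf ha hb.1 hb'c.1.1 hb.2.2.1.symm
  have l1 : q1 ∈ link D p := ⟨m1, fun e => hz1 (mul_eq_left.1 e), c1⟩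
  have l2 : q2 ∈ link D p := ⟨m2, fun e => hz2 (mul_eq_left.1 e), c2⟩
  have l3 : q3 ∈ link D p := ⟨m3, fun e => hz3 (mul_eq_left.1 e), c3⟩
  have cz1 : Commute (f * a) p := by
    have := ((Commute.refl p).inv_right.mul_right c1).symm
    rwa [inv_mul_cancel_left] at this
  have cz2 : Commute (b * b') p := by
    have := ((Commute.refl p).inv_right.mul_right c2).symm
    rwa [inv_mul_cancel_left] at this
  have h12 : q1 ≠ q2 := fun e => by
    have e' : f * a = b * b' := mul_left_cancel e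
    refine S.four_ne_one hf ha hb.1 hb'c.1.1 hb.2.2.1.symm ?_
    rw [mul_assoc _ b b', e']
    calc b * b' * (b * b') = b * (b' * b) * b' := by simp only [mul_assoc]
      _ = b * b * (b' * b') := by rw [← bb'.eq]; simp only [mul_assoc]
      _ = 1 := by rw [S.sq b hb.1.1, S.sq b' hb'c.1.1.1, mul_one]
  refine (T_two (S.im_mem hp l1) (S.im_mem hp l2) fun e => h12 (S.im_inj hp l1 l2 e)).1 ?_
  have key : S.im hp q1 * S.im hp q2 = S.im hp q3 := by
    have ep := Commute.refl p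
    rw [S.im_mul hp ep cz1, S.im_mul hp ep cz2,
      S.im_mul hp ep (by rw [e12]; exact cz1.mul_left cz2), e12, S.im_mul hp cz1 cz2, S.im_self,
      one_mul, one_mul, one_mul]
  rw [key]
  exact S.im_mem hp l3

end Setting

end Cfsg.Agent.M22Trans
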