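import Cfsg.Agent.U62Plane.Fusion
import Cfsg.Agent.TTLink.UnitarySrg
import Cfsg.Agent.TTLink.M22Cover

/-!
Transvections of `PSU(6,2)`: lines, products of up to three, and two small centraliser facts.
-/

set_option autoImplicit false
set_option maxHeartbeats 1000000

namespace Cfsg.Agent.M22Trans

open Cfsg.Agent.TTClass.UnitF4 Cfsg.Agent.TTLink Cfsg.Agent.TTLink.UnitarySix
open Cfsg.Agent.GFour25 (F4 card_F4)
open Cfsg.Agent.ThreeTransp45

/-- The field. -/
theorem hF4 : Fintype.card F4 = 4 := card_F4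

/-- The unitary group. -/
abbrev P : Type := Cfsg.PSU 6 F4 2

/-- The transvections. -/
abbrev T : Set P := allTT hF4

theorem T_data : Data T := allTT_data hF4

theorem T_sq {p : P} (hp : p ∈ T) : p * p = 1 := T_data.mul_self hp

theorem T_ne_one {p : P} (hp : p ∈ T) : p ≠ 1 := ThreeTransp.ne_one T_data.set hp

theorem T_two {p q : P} (hp : p ∈ T) (hq : q ∈ T) (hne : p ≠ q) :
    p * q ∉ T ∧ p * q ≠ 1 :=
  ⟨pair_not_mem T_data (allTT_cl hF4) (allTT_twinFree hF4) hp hq hne, fun h =>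
    hne (by rw [mul_eq_one_iff_eq_inv.1 h, T_data.inv_eq hq])⟩

theorem T_commute_two {p q x : P} (hp : p ∈ T) (hq : q ∈ T) (hx : x ∈ T) (hne : p ≠ q) :
    Commute x (p * q) ↔ Commute x p ∧ Commute x q :=
  SporB.centralize_two T_data.set hp hq hx hne

theorem T_indep_four : Indep 4 T := indep_four T_data (allTT_twinFree hF4)

/-- `y` lies on the line through `p` and `q`. -/
def OnLine (p q y : P) : Prop :=
  y ∈ T ∧ Commute y p ∧ Commute y q ∧ ∀ x ∈ T, Commute x p → Commute x q → Commute x y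

theorem onLine_left {p q : P} (hp : p ∈ T) (hc : Commute p q) : OnLine p q p :=
  ⟨hp, Commute.refl _, hc, fun _ _ h _ => h⟩

theorem onLine_right {p q : P} (hq : q ∈ T) (hc : Commute p q) : OnLine p q q :=
  ⟨hq, hc.symm, Commute.refl _, fun _ _ _ h => h⟩

/-- The list of a line. -/
theorem line_spec {p q : P} (hp : p ∈ T) (hq : q ∈ T) (hne : p ≠ q) (hc : Commute p q) :
    ∃ L : List P, Fac T L ∧ L.length = 5 ∧ L.prod = 1 ∧ ∀ y, y ∈ L ↔ OnLine p q y := by
  obtain ⟨L, h1, h2, h3, h4⟩ := line_exists hF4 T_data hp hq hne hc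
  refine ⟨L, ⟨h1, fun y hy => ((h4 y).1 hy).1, fun y hy z hz => ?_⟩, h2, h3, h4⟩
  obtain ⟨hyT, hyp, hyq, -⟩ := (h4 y).1 hy
  exact ((h4 z).1 hz).2.2.2 y hyT hyp hyq

theorem line_eq {p q y : P} (hp : p ∈ T) (hq : q ∈ T) (hne : p ≠ q) (hc : Commute p q)
    (hy : OnLine p q y) (hyp : y ≠ p) (z : P) : OnLine p y z ↔ OnLine p q z := by
  obtain ⟨L, hL, hLl, hLp, hLm⟩ := line_spec hp hq hne hc
  obtain ⟨M, hM, hMl, hMp, hMm⟩ := line_spec hp hy.1 hyp.symm hy.2.1.symm
  have a1 : p ∈ L := (hLm p).2 (onLine_left hp hc)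
  have a2 : p ∈ M := (hMm p).2 (onLine_left hp hy.2.1.symm)
  have a3 : y ∈ L := (hLm y).2 hy
  have a4 : y ∈ M := (hMm y).2 (onLine_right hy.1 hy.2.1.symm)
  rw [← hMm, ← hLm]
  exact ⟨five_eq hF4 hM hL hMl hLl hMp hLp a2 a4 a1 a3 hyp.symm z,
    five_eq hF4 hL hM hLl hMl hLp hMp a1 a3 a2 a4 hyp.symm z⟩

theorem onLine_swap {p q y : P} (hp : p ∈ T) (hq : q ∈ T) (hne : p ≠ q) (hc : Commute p q)
    (hy : OnLine p q y) (hyp : y ≠ p) : OnLine p y q :=
  (line_eq hp hq hne hc hy hyp q).2 (onLine_right hq hc)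

theorem onLine_comm {p q y : P} (hy : OnLine p q y) : OnLine q p y :=
  ⟨hy.1, hy.2.2.1, hy.2.1, fun x hx h1 h2 => hy.2.2.2 x hx h2 h1⟩

/-- The four further points of a line. -/
theorem line_card {p q : P} (hp : p ∈ T) (hq : q ∈ T) (hne : p ≠ q) (hc : Commute p q) :
    {y : P | y ≠ p ∧ OnLine p q y}.ncard = 4 := by
  classical
  obtain ⟨L, hL, hLl, -, hLm⟩ := line_spec hp hq hne hc
  have e : {y : P | y ≠ p ∧ OnLine p q y} = ↑(L.toFinset.erase p) := by
    ext y; simp [← hLm, and_comm]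
  rw [e, Set.ncard_coe_finset, Finset.card_erase_of_mem
    (by rw [List.mem_toFinset, hLm]; exact onLine_left hp hc),
    List.toFinset_card_of_nodup hL.nodup, hLl]

/-- Three commuting transvections: three off a line, or a product of two. -/
theorem line_product {p q r : P} (hp : p ∈ T) (hq : q ∈ T) (hpq : p ≠ q) (hc : Commute p q)
    (hr : OnLine p q r) (hrp : r ≠ p) (hrq : r ≠ q) :
    ∃ s t : P, s ∈ T ∧ t ∈ T ∧ s ≠ t ∧ Commute s t ∧ p * q * r = s * t := by
  classical
  obtain ⟨L, hL, hLl, hLp, hLm⟩ := line_spec hp hq hpq hc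
  have h1 : p ∈ L := (hLm p).2 (onLine_left hp hc)
  have h2 : q ∈ L.erase p := (List.mem_erase_of_ne hpq.symm).2 ((hLm q).2 (onLine_right hq hc))
  have h3 : r ∈ (L.erase p).erase q :=
    (List.mem_erase_of_ne hrq).2 ((List.mem_erase_of_ne hrp).2 ((hLm r).2 hr))
  set R := ((L.erase p).erase q).erase r with hR
  have hperm : L.Perm (p :: q :: r :: R) :=
    (List.perm_cons_erase h1).trans (((List.perm_cons_erase h2).trans
      ((List.perm_cons_erase h3).cons q)).cons p)
  have hlen : R.length = 2 := by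
    have := hperm.length_eq; simp [hLl] at this; omega
  obtain ⟨s, t, hRst⟩ := List.length_eq_two.1 hlen
  have hfac : Fac T R := fac_erase (fac_erase (fac_erase hL p) q) r
  rw [hRst] at hfac
  have hs := hfac.mem s (by simp)
  have ht := hfac.mem t (by simp)
  have hst := hfac.comm s (by simp) t (by simp)
  refine ⟨s, t, hs, ht, by simpa using hfac.nodup, hst, ?_⟩
  have hp1 := hperm.prod_eq' (List.pairwise_of_forall_mem_list fun u hu v hv => hL.comm u hu v hv)
  rw [hLp, hRst] at hp1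
  simp only [List.prod_cons, List.prod_nil, mul_one] at hp1
  have e : p * q * r * (s * t) = 1 := by rw [hp1]; simp only [mul_assoc]
  rw [mul_eq_one_iff_eq_inv.1 e, mul_inv_rev, T_data.inv_eq hs, T_data.inv_eq ht, hst.eq]

/-- Three commuting transvections off a line. -/
structure Tri (p q r : P) : Prop where
  hp : p ∈ T
  hq : q ∈ T
  hr : r ∈ T
  pq : p ≠ q
  pr : p ≠ r
  qr : q ≠ r
  cpq : Commute p q
  cpr : Commute p r
  cqr : Commute q r
  off : ¬ OnLine p q r

theorem Tri.ne_pair {p q r : P} (h : Tri p q r) {s t : P} (hs : s ∈ T) (ht : t ∈ T) (hst : s ≠ t)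
    (hc : Commute s t) : p * q * r ≠ s * t := by
  obtain ⟨hp, hq, hr, pq, pr, qr, cpq, cpr, cqr, off⟩ := h
  intro e
  have two : ∀ x ∈ T, Commute x p → Commute x q → Commute x r → Commute x s ∧ Commute x t :=
    fun x hx a b c => (T_commute_two hs ht hx hst).1 (e ▸ (a.mul_right b).mul_right c)
  obtain ⟨ps, pt⟩ := two p hp (Commute.refl _) cpq cpr
  obtain ⟨qs, qt⟩ := two q hq cpq.symm (Commute.refl _) cqr
  obtain ⟨rs, rt⟩ := two r hr cpr.symm cqr.symm (Commute.refl _)
  -- no member is repeated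
  have excl : ∀ u v : P, u ∈ T → v ∈ T → u ≠ v → Commute u v → u * v = p * q * r →
      Commute p u → Commute q u → Commute r u → u ≠ p ∧ u ≠ q ∧ u ≠ r := by
    intro u v hu hv huv _ euv c1 c2 c3
    refine ⟨?_, ?_, ?_⟩ <;> rintro rfl
    · have : v = q * r := mul_left_cancel (euv.trans (mul_assoc _ _ _))
      exact (T_two hq hr qr).1 (this ▸ hv)
    · have : v = p * r := mul_left_cancel (euv.trans (by rw [cpq.eq, mul_assoc]))
      exact (T_two hp hr pr).1 (this ▸ hv)
    · have : v = p * q := mul_left_cancel (euv.trans (((c1.mul_left c2)).eq))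
      exact (T_two hp hq pq).1 (this ▸ hv)
  obtain ⟨sp, sq, sr⟩ := excl s t hs ht hst hc e.symm ps qs rs
  obtain ⟨tp, tq, tr⟩ := excl t s ht hs hst.symm hc.symm (hc.symm.eq.trans e.symm) pt qt rt
  have hfac : Fac T [p, q, r, t, s] := by
    refine ⟨by simp [pq, pr, qr, sp.symm, sq.symm, sr.symm, tp.symm, tq.symm, tr.symm, hst.symm],
      by simp [hp, hq, hr, hs, ht], ?_⟩
    simp [cpq, cpr, cqr, ps, pt, qs, qt, rs, rt, hc, cpq.symm, cpr.symm, cqr.symm, ps.symm, pt.symm,
      qs.symm, qt.symm, rs.symm, rt.symm, hc.symm]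
  obtain ⟨L, hL, hLl, hLp, hLm⟩ := line_spec hp hq pq cpq
  have hprod : [p, q, r, t, s].prod = 1 := by
    simp only [List.prod_cons, List.prod_nil, mul_one]
    rw [show p * (q * (r * (t * s))) = p * q * r * (t * s) by simp only [mul_assoc], e,
      show s * t * (t * s) = s * (t * t) * s by simp only [mul_assoc], T_sq ht, mul_one, T_sq hs]
  exact off ((hLm r).1 (five_eq hF4 hfac hL rfl hLl hprod hLp (by simp) (by simp)
    ((hLm p).2 (onLine_left hp cpq)) ((hLm q).2 (onLine_right hq cpq)) pq r (by simp)))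

theorem Tri.not_mem {p q r : P} (h : Tri p q r) : p * q * r ∉ T ∧ p * q * r ≠ 1 := by
  obtain ⟨hp, hq, hr, pq, pr, qr, cpq, cpr, cqr, -⟩ := h
  refine ⟨fun hm => ?_, fun e => (T_two hp hq pq).1 ?_⟩
  · by_cases e1 : p * q * r = p
    · exact (T_two hq hr qr).2 (by rwa [mul_assoc, mul_eq_left] at e1)
    by_cases e2 : p * q * r = q
    · exact (T_two hp hr pr).2 (by rwa [cpq.eq, mul_assoc, mul_eq_left] at e2)
    by_cases e3 : p * q * r = r
    · exact (T_two hp hq pq).2 (by rwa [mul_eq_right] at e3)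
    refine T_indep_four [p, q, r, p * q * r] ?_ rfl ?_ ?_ ?_
    · simp [pq, pr, qr, Ne.symm e1, Ne.symm e2, Ne.symm e3]
    · simp [hp, hq, hr, hm]
    · have c1 : Commute p (p * q * r) := ((Commute.refl p).mul_right cpq).mul_right cpr
      have c2 : Commute q (p * q * r) := (cpq.symm.mul_right (Commute.refl q)).mul_right cqr
      have c3 : Commute r (p * q * r) := (cpr.symm.mul_right cqr.symm).mul_right (Commute.refl r)
      simp [cpq, cpr, cqr, cpq.symm, cpr.symm, cqr.symm, c1, c2, c3, c1.symm, c2.symm, c3.symm]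
    · simp only [List.prod_cons, List.prod_nil, mul_one]
      rw [show p * (q * (r * (p * q * r))) = p * q * r * (p * q * r) by simp only [mul_assoc]]
      exact T_sq hm
  · rw [mul_eq_one_iff_eq_inv, T_data.inv_eq hr] at e
    rw [e]; exact hr

/-- The involutions. -/
theorem classify {u : P} (hu : u * u = 1) : u = 1 ∨ u ∈ T ∨
    (∃ p q, p ∈ T ∧ q ∈ T ∧ p ≠ q ∧ Commute p q ∧ u = p * q) ∨
    ∃ p q r, Tri p q r ∧ u = p * q * r := by
  classical
  let Q : P → Prop := fun v => ∃ l : List P, l.length ≤ 3 ∧ (∀ x ∈ l, x ∈ T) ∧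
    (∀ x ∈ l, ∀ y ∈ l, Commute x y) ∧ l.prod = v
  have hinv : ∀ g v, Q v → Q (g * v * g⁻¹) := by
    rintro g v ⟨l, h1, h2, h3, rfl⟩
    refine ⟨l.map (cj g), by simpa using h1, ?_, ?_, ?_⟩
    · intro x hx
      obtain ⟨y, hy, rfl⟩ := List.mem_map.1 hx
      exact T_data.inv' g y (h2 y hy)
    · intro x hx z hz
      obtain ⟨y, hy, rfl⟩ := List.mem_map.1 hx
      obtain ⟨w, hw, rfl⟩ := List.mem_map.1 hz
      exact (cj_commute_iff g y w).2 (h3 y hy w hw)
    · exact (map_list_prod (MulAut.conj g) l).symm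
  have hrep : ∀ l : List (Fin 512), l.length ≤ 3 → (∀ n ∈ l, (n : ℕ) ∈ U62Plane.pts) →
      Q (l.map U62Plane.eU).prod := fun l h1 h2 => ⟨l.map U62Plane.eU, by simpa using h1, fun x hx => by
      obtain ⟨n, hn, rfl⟩ := List.mem_map.1 hx
      exact U62Plane.eU_pts (h2 n hn), fun x hx y hy => by
      obtain ⟨n, -, rfl⟩ := List.mem_map.1 hx
      obtain ⟨m, -, rfl⟩ := List.mem_map.1 hy
      exact U62Plane.EU_comm (U62Plane.eU_mem n) (U62Plane.eU_mem m), rfl⟩
  have horb : ∀ i < 511, Q (U62Plane.eU (U62Plane.Cov.orbN i)) := by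
    intro i hi
    induction i using Nat.strong_induction_on with
    | _ i ih =>
    by_cases h' : i ∈ [0, 21, 231]
    · simp only [List.mem_cons, List.not_mem_nil, or_false] at h'
      rcases h' with rfl | rfl | rfl
      · have := hrep [1] (by simp) (by decide +kernel)
        rwa [List.map_cons, List.map_nil, List.prod_cons, List.prod_nil, mul_one,
          show (1 : Fin 512) = U62Plane.Cov.orbN 0 by decide +kernel] at this
      · have := hrep [1, 2] (by simp) (by decide +kernel)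
        rwa [List.map_cons, List.map_cons, List.map_nil, List.prod_cons, List.prod_cons, List.prod_nil,
          mul_one, U62Plane.eU_mul,
          show U62Plane.fxor 1 2 = U62Plane.Cov.orbN 21 by decide +kernel] at this
      · have := hrep [1, 2, 4] (by simp) (by decide +kernel)
        rwa [List.map_cons, List.map_cons, List.map_cons, List.map_nil, List.prod_cons, List.prod_cons,
          List.prod_cons, List.prod_nil, mul_one, U62Plane.eU_mul, U62Plane.eU_mul,
          show U62Plane.fxor 1 (U62Plane.fxor 2 4) = U62Plane.Cov.orbN 231 by decide +kernel] at this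
    · obtain ⟨h1, -⟩ := U62Plane.orbT_ok i hi h'
      obtain ⟨a, ha⟩ := U62Plane.Cov.orbN_step hi h'
      rw [← ha, ← U62Plane.lU_conj]
      exact hinv _ _ (ih _ h1 (h1.trans hi))
  obtain ⟨g, hg⟩ := U62Plane.exists_conj_EU hu
  obtain ⟨n, hn⟩ := U62Plane.mem_EU.1 hg
  have hQ : Q u := by
    rw [show u = g⁻¹ * (g * u * g⁻¹) * g⁻¹⁻¹ by group, ← hn]
    refine hinv _ _ ?_
    have hn' : n ∈ insert (0 : Fin 512) ((Finset.range 511).image U62Plane.Cov.orbN) := by
      rw [← U62Plane.Cov.univ_eq]; exact Finset.mem_univ n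
    rcases Finset.mem_insert.1 hn' with rfl | hn'
    · exact ⟨[], by simp, by simp, by simp, by rw [U62Plane.eU_zero]; rfl⟩
    · obtain ⟨i, hi, rfl⟩ := Finset.mem_image.1 hn'
      exact horb i (Finset.mem_range.1 hi)
  obtain ⟨l, hlen, hT, hC, rfl⟩ := hQ
  match l, hlen, hT, hC with
  | [], _, _, _ => exact Or.inl rfl
  | [p], _, hT, _ => exact Or.inr (Or.inl (by simpa using hT p (by simp)))
  | [p, q], _, hT, hC =>
    have hp := hT p (by simp)
    have hq := hT q (by simp)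
    by_cases e : p = q
    · exact Or.inl (by simp [← e, T_sq hp])
    · exact Or.inr (Or.inr (Or.inl ⟨p, q, hp, hq, e, hC p (by simp) q (by simp), by simp⟩))
  | [p, q, r], _, hT, hC =>
    have hp := hT p (by simp)
    have hq := hT q (by simp)
    have hr := hT r (by simp)
    have cpq := hC p (by simp) q (by simp)
    have cpr := hC p (by simp) r (by simp)
    have cqr := hC q (by simp) r (by simp)
    have e : [p, q, r].prod = p * q * r := by simp [mul_assoc]
    rw [e]
    by_cases e1 : p = q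
    · exact Or.inr (Or.inl (by rw [e1, T_sq hq, one_mul]; exact hr))
    by_cases e2 : q = r
    · exact Or.inr (Or.inl (by rw [mul_assoc, e2, T_sq hr, mul_one]; exact hp))
    by_cases e3 : p = r
    · exact Or.inr (Or.inl (by rw [← e3, mul_assoc, ← cpq.eq, ← mul_assoc, T_sq hp, one_mul]; exact hq))
    by_cases ho : OnLine p q r
    · obtain ⟨s, t, hs, ht, hst, hc, est⟩ := line_product hp hq e1 cpq ho (Ne.symm e3) (Ne.symm e2)
      exact Or.inr (Or.inr (Or.inl ⟨s, t, hs, ht, hst, hc, est⟩))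
    · exact Or.inr (Or.inr (Or.inr ⟨p, q, r, ⟨hp, hq, hr, e1, e3, e2, cpq, cpr, cqr, ho⟩, rfl⟩))

/-- An isotropic vector outside a span is not on the line. -/
theorem onLine_span {p q r : Fin 6 → F4} (hp : H p p = 0) (hq : H q q = 0) (hr : H r r = 0)
    (hr0 : r ≠ 0) (hrp : H r p = 0) (hrq : H r q = 0) (h : OnLine (tt hF4 p) (tt hF4 q) (tt hF4 r)) :
    r ∈ Submodule.span F4 ({p, q} : Set (Fin 6 → F4)) := by
  by_contra hspan
  obtain ⟨w, hw⟩ := exists_omega hF4
  have h2 := two_eq_zero hF4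
  obtain ⟨s₀, hs1, hs2, hs3⟩ := exists_perp hF4 hspan
  have hrs : H r s₀ = 1 := by rw [h_symm hF4 s₀ r, hs3, one_pow]
  obtain ⟨μ, hμ⟩ : ∃ μ : F4, μ + μ ^ 2 = H s₀ s₀ := by
    rcases h_self hF4 s₀ with h | h
    · exact ⟨0, by rw [h]; simp⟩
    · exact ⟨w, by rw [h]; linear_combination hw - h2⟩
  have hsr : H (s₀ + μ • r) r = 1 := by rw [h_add_left, h_smul_left, hs3, hr]; simp
  have hss : H (s₀ + μ • r) (s₀ + μ • r) = 0 := by
    rw [h_add_left s₀ (μ • r), h_smul_left, h_add_right hF4 s₀, h_add_right hF4 r, h_smul_right,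
      h_smul_right, hs3, hrs, hr]
    linear_combination -hμ + (μ + μ ^ 2) * h2
  have hs0 : s₀ + μ • r ≠ 0 := fun e => by rw [e, h_zero_left] at hsr; exact zero_ne_one hsr
  have := h.2.2.2 _ ⟨_, hss, hs0, rfl⟩
    (tt_commute hF4 hss hp (by rw [h_add_left, h_smul_left, hs1, hrp]; simp))
    (tt_commute hF4 hss hq (by rw [h_add_left, h_smul_left, hs2, hrq]; simp))
  rw [orth_of_tt hF4 hss hs0 hr hr0 this] at hsr
  exact zero_ne_one hsr

/-- Two commuting transvections lie in a plane. -/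
theorem exists_tri {p q : P} (hp : p ∈ T) (hq : q ∈ T) (hne : p ≠ q) (hc : Commute p q) :
    ∃ w, Tri p q w := by
  obtain ⟨u, hu, hu0, rfl⟩ := id hp
  obtain ⟨v, hv, hv0, rfl⟩ := id hq
  obtain ⟨r, hr, hru, hrv, hrs⟩ := off_line hF4 hu hv
  have hr0 : r ≠ 0 := fun e => hrs (e ▸ Submodule.zero_mem _)
  refine ⟨tt hF4 r, hp, hq, ⟨r, hr, hr0, rfl⟩, hne, fun e => hrs ?_, fun e => hrs ?_, hc,
    (tt_commute hF4 hr hu hru).symm, (tt_commute hF4 hr hv hrv).symm,
    fun h => hrs (onLine_span hu hv hr hr0 hru hrv h)⟩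
  · obtain ⟨c, rfl⟩ := tt_inj hF4 hu hu0 hr hr0 e
    exact Submodule.smul_mem _ c (Submodule.subset_span (Set.mem_insert _ _))
  · obtain ⟨c, rfl⟩ := tt_inj hF4 hv hv0 hr hr0 e
    exact Submodule.smul_mem _ c (Submodule.subset_span (Set.mem_insert_of_mem _ rfl))

/-- Two sixes through a plane. -/
theorem Tri.two_sixes {p q r : P} (h : Tri p q r) :
    ∃ A B : List P,
      (A.Nodup ∧ A.length = 6 ∧ A.prod = 1 ∧ (∀ y ∈ A, y ∈ T) ∧ ∀ u ∈ A, ∀ v ∈ A, Commute u v) ∧
      (B.Nodup ∧ B.length = 6 ∧ B.prod = 1 ∧ (∀ y ∈ B, y ∈ T) ∧ ∀ u ∈ B, ∀ v ∈ B, Commute u v) ∧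
      (∀ v ∈ [p, q, r], v ∈ A ∧ v ∈ B) ∧ ∃ y ∈ B, y ∉ A := by
  obtain ⟨hp, hq, hr, pq, pr, qr, cpq, cpr, cqr, off⟩ := h
  obtain ⟨u, hu, hu0, rfl⟩ := id hp
  obtain ⟨v, hv, hv0, rfl⟩ := id hq
  obtain ⟨w, hw, hw0, rfl⟩ := id hr
  have ouv := orth_of_tt hF4 hu hu0 hv hv0 cpq
  have ouw := orth_of_tt hF4 hu hu0 hw hw0 cpr
  have ovw := orth_of_tt hF4 hv hv0 hw hw0 cqr
  have horth : ∀ x ∈ [u, v, w], ∀ y ∈ [u, v, w], H x y = 0 := by
    have a : H v u = 0 := by rw [h_symm hF4 u v, ouv]; simp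
    have b : H w u = 0 := by rw [h_symm hF4 u w, ouw]; simp
    have c : H w v = 0 := by rw [h_symm hF4 v w, ovw]; simp
    simp [hu, hv, hw, ouv, ouw, ovw, a, b, c]
  have hind : ∀ t : F4 × F4 × F4, comb u v w t = 0 → t = 0 := by
    rintro ⟨a, b, c⟩ e
    change a • u + b • v + c • w = 0 at e
    have hc0 : c = 0 := by
      by_contra hc
      have hwe : w = (-(c⁻¹ * a)) • u + (-(c⁻¹ * b)) • v := by
        have e' : c⁻¹ • (a • u + b • v + c • w) = 0 := by rw [e, smul_zero]
        rw [smul_add, smul_add, smul_smul, smul_smul, smul_smul, inv_mul_cancel₀ hc, one_smul] at e'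
        rw [eq_neg_of_add_eq_zero_right e']
        module
      refine off ⟨hr, cpr.symm, cqr.symm, fun x hx c1 c2 => ?_⟩
      obtain ⟨s, hs, hs0, rfl⟩ := hx
      refine tt_commute hF4 hs hw ?_
      rw [hwe, h_add_right hF4, h_smul_right, h_smul_right, orth_of_tt hF4 hs hs0 hu hu0 c1,
        orth_of_tt hF4 hs hs0 hv hv0 c2]
      simp
    subst hc0
    rw [zero_smul, add_zero] at e
    have hb0 : b = 0 := by
      by_contra hb
      refine pq ?_
      have hve : v = (-(b⁻¹ * a)) • u := by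
        have e' : b⁻¹ • (a • u + b • v) = 0 := by rw [e, smul_zero]
        rw [smul_add, smul_smul, smul_smul, inv_mul_cancel₀ hb, one_smul] at e'
        rw [eq_neg_of_add_eq_zero_right e', neg_smul]
      exact ((tt_fibre hF4 hu hu0).2 ⟨_, fun e0 => hv0 (by rw [hve, e0, zero_smul]), hve.symm⟩).2.2.symm
    subst hb0
    rw [zero_smul, add_zero] at e
    simp [(smul_eq_zero.1 e).resolve_right hu0]
  obtain ⟨A, B, hA, hB, hmem, hAB⟩ := two_sixes_at hF4 horth hind
  refine ⟨A, B, hA, hB, ?_, hAB⟩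
  intro x hx
  simp only [List.mem_cons, List.not_mem_nil, or_false] at hx
  rcases hx with rfl | rfl | rfl <;> exact hmem _ (by simp)

/-- Fixes `p` and every class of the orthogonal modulo `p`. -/
def InU (p : Fin 6 → F4) (g : ↥(Cfsg.SU 6 F4 2)) : Prop :=
  act g p = p ∧ ∀ x, H x p = 0 → ∃ c : F4, act g x = x + c • p

theorem InU.mul {p : Fin 6 → F4} {g h : ↥(Cfsg.SU 6 F4 2)} (hg : InU p g) (hh : InU p h) :
    InU p (g * h) := by
  refine ⟨by rw [act_mul, hh.1, hg.1], fun x hx => ?_⟩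
  obtain ⟨c, hc⟩ := hh.2 x hx
  obtain ⟨c', hc'⟩ := hg.2 x hx
  exact ⟨c' + c, by rw [act_mul, hc, act_add, act_smul, hc', hg.1, add_smul, add_assoc]⟩

theorem InU.pow_four {p : Fin 6 → F4} {g : ↥(Cfsg.SU 6 F4 2)} (hg : InU p g) : g ^ 4 = 1 := by
  refine act_ext fun x => ?_
  obtain ⟨u, hu⟩ : ∃ u, u = act g x + x := ⟨_, rfl⟩
  have hgx : act g x = x + u := by rw [hu, add_comm (act g x), vadd_self' hF4]
  have hup : H u p = 0 := by
    rw [hu, h_add_left]
    have : H (act g x) p = H x p := by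
      conv_lhs => rw [← hg.1]
      exact act_iso g x p
    rw [this]; exact add_self'' hF4 _
  obtain ⟨c, hc⟩ := hg.2 u hup
  have h2 : ∀ y, act (g * g) y = act g (act g y) := act_mul g g
  have e2 : act (g * g) x = x + c • p := by
    rw [h2, hgx, act_add, hgx, hc, show x + u + (u + c • p) = x + (u + (u + c • p)) by abel,
      vadd_self' hF4]
  have ep : act (g * g) p = p := by rw [h2, hg.1, hg.1]
  rw [show g ^ 4 = g * g * (g * g) by simp [pow_succ, mul_assoc], act_mul, e2, act_add, act_smul, ep,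
    e2, act_one, add_assoc, vadd_self hF4, add_zero]

/-- Two transvections on a line through the first point fix the classes of its orthogonal. -/
theorem line_two_inU {a b y : P} (ha : a ∈ T) (hb : b ∈ T) (hab : a ≠ b) (hc : Commute a b)
    (hy : OnLine a b y) (hya : y ≠ a) {p : Fin 6 → F4} (hp : H p p = 0) (hp0 : p ≠ 0)
    (hap : tt hF4 p = a) : ∃ g, InU p g ∧ QuotientGroup.mk' _ g = b * y := by
  obtain ⟨q, hq, hq0, rfl⟩ := id hb
  obtain ⟨v, hv, hv0, rfl⟩ := id hy.1
  subst hap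
  have opq := orth_of_tt hF4 hp hp0 hq hq0 hc
  have oqp : H q p = 0 := by rw [h_symm hF4 p q, opq]; simp
  have ovp := orth_of_tt hF4 hv hv0 hp hp0 hy.2.1
  have ovq := orth_of_tt hF4 hv hv0 hq hq0 hy.2.2.1
  obtain ⟨α, β, hαβ⟩ := Submodule.mem_span_pair.1 (onLine_span hp hq hv hv0 ovp ovq hy)
  have hβ : β ≠ 0 := by
    rintro rfl
    rw [zero_smul, add_zero] at hαβ
    exact hya (((tt_fibre hF4 hp hp0).2 ⟨α, fun e => hv0 (by rw [← hαβ, e, zero_smul]), hαβ⟩).2.2)
  refine ⟨tSU hF4 q hq * tSU hF4 v hv, ⟨?_, fun x hx => ?_⟩, by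
    rw [map_mul, tt_eq hF4 hq, tt_eq hF4 hv]⟩
  · have opv : H p v = 0 := by rw [h_symm hF4 v p, ovp]; simp
    rw [act_mul, act_tSU, act_tSU, opv]
    simp [opq]
  · refine ⟨β ^ 2 * H x q * α, ?_⟩
    have hxv : H x v = β ^ 2 * H x q := by
      rw [← hαβ, h_add_right hF4, h_smul_right, h_smul_right, hx]; ring
    rw [act_mul, act_tSU, act_tSU, h_add_left, h_smul_left, ovq, mul_zero, add_zero, hxv, ← hαβ]
    funext i
    simp only [Pi.add_apply, Pi.smul_apply, smul_eq_mul]
    linear_combination (H x q * q i) * cube hF4 hβ + (H x q * q i) * two_eq_zero hF4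

/-- Products of lines through one point have exponent four. -/
theorem line_four {a b y b' y' : P} (ha : a ∈ T) (hb : b ∈ T) (hab : a ≠ b) (hc : Commute a b)
    (hy : OnLine a b y) (hya : y ≠ a) (hb' : b' ∈ T) (hab' : a ≠ b') (hc' : Commute a b')
    (hy' : OnLine a b' y') (hya' : y' ≠ a) : (b * y * (b' * y')) ^ 4 = 1 := by
  obtain ⟨p, hp, hp0, hap⟩ := id ha
  obtain ⟨g, hg, eg⟩ := line_two_inU ha hb hab hc hy hya hp hp0 hap
  obtain ⟨g', hg', eg'⟩ := line_two_inU ha hb' hab' hc' hy' hya' hp hp0 hap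
  rw [← eg, ← eg', ← map_mul, ← map_pow, (hg.mul hg').pow_four, map_one]

/-- An element of odd order centralising the neighbours of a transvection is trivial. -/
theorem centralizer_link {a u : P} (ha : a ∈ T) (hua : Commute u a) (ho : Odd (orderOf u))
    (h : ∀ b ∈ T, b ≠ a → Commute a b → Commute u b) : u = 1 := by
  obtain ⟨p, hpdef⟩ : ∃ p : Fin 6 → F4, pvec 1 0 0 = p := ⟨_, rfl⟩
  have hp : H p p = 0 := hpdef ▸ h_pvec hF4 ..
  have hp0 : p ≠ 0 := fun e => one_ne_zero (pvec_eq_zero (hpdef.trans e)).1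
  obtain ⟨k, hk⟩ := allTT_cl hF4 a ha (tt hF4 p) ⟨p, hp, hp0, rfl⟩
  suffices h0 : cj k u = 1 by
    have := congrArg (cj k⁻¹) h0
    rwa [cj_inv_cj, show cj k⁻¹ (1 : P) = 1 by simp [cj]] at this
  have hk' : ∀ b ∈ T, Commute (tt hF4 p) b → Commute (cj k u) b := by
    intro b hb hcb
    rw [← cj_cj_inv k b, cj_commute_iff]
    by_cases e : cj k⁻¹ b = a
    · rw [e]; exact hua
    · refine h _ (T_data.inv' _ b hb) e ?_
      have := (cj_commute_iff k⁻¹ (tt hF4 p) b).2 hcb
      rwa [← hk, cj_inv_cj] at this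
  have ho' : Odd (orderOf (cj k u)) := by
    rw [show orderOf (cj k u) = orderOf u from Invol.orderOf_conj ..]; exact ho
  obtain ⟨g, hgu⟩ := QuotientGroup.mk_surjective (cj k u)
  have h2 := two_eq_zero hF4
  obtain ⟨w, hw⟩ := exists_omega hF4
  -- the isotropic vectors orthogonal to `p` are eigenvectors
  have heig : ∀ q : Fin 6 → F4, H q q = 0 → q ≠ 0 → H p q = 0 → ∃ c : F4, act g q = c • q := by
    intro q hq hq0 hpq
    have hgq : H (act g q) (act g q) = 0 := by rw [act_iso]; exact hq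
    have hgq0 : act g q ≠ 0 := fun e => hq0 (act_injective g (e.trans (act_zero g).symm))
    have e1 : g * tSU hF4 q hq * g⁻¹ = tSU hF4 (act g q) hgq := act_ext fun x => by
      rw [conj_tv hF4 g (fun y => act_tSU hF4 q hq y), act_tSU]
    have hcomm := hk' (tt hF4 q) ⟨q, hq, hq0, rfl⟩ (tt_commute hF4 hp hq hpq)
    have e2 : tt hF4 q = tt hF4 (act g q) := by
      rw [tt_eq hF4 hgq, ← e1, map_mul, map_mul, map_inv, ← tt_eq hF4 hq, QuotientGroup.mk'_apply, hgu,
        hcomm.eq, mul_inv_cancel_right]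
    exact tt_inj hF4 hq hq0 hgq hgq0 e2
  obtain ⟨lam, hlam⟩ := heig p hp hp0 hp
  have hperp : ∀ x : Fin 6 → F4, H x p = x 0 + x 1 := fun x => by
    simp [← hpdef, H, Cfsg.hermForm, pvec, Fin.sum_univ_six]
  have hp01 : p 0 = 1 ∧ p 1 = 1 ∧ p 2 = 0 ∧ p 3 = 0 ∧ p 4 = 0 ∧ p 5 = 0 := by simp [← hpdef, pvec]
  -- one eigenvalue
  have hone : ∀ q : Fin 6 → F4, H q q = 0 → q 0 = 0 → q 1 = 0 → (∃ i, p i = 0 ∧ q i ≠ 0) →
      act g q = lam • q := by
    rintro q hq q0 q1 ⟨i, hpi, hqi⟩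
    have hqne : q ≠ 0 := fun e => hqi (by rw [e]; rfl)
    have hqp : H q p = 0 := by rw [hperp, q0, q1, add_zero]
    have hpq : H p q = 0 := by rw [h_symm hF4 q p, hqp]; simp
    obtain ⟨c, hc⟩ := heig q hq hqne hpq
    obtain ⟨c', hc'⟩ := heig (q + p) (by rw [h_add_left, h_add_right hF4, h_add_right hF4, hq, hp, hpq, hqp]
                                         simp)
      (fun e => by have := congrFun e i; simp [hpi] at this; exact hqi this)
      (by rw [h_add_right hF4, hpq, hp, add_zero])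
    rw [act_add, hc, hlam] at hc'
    have e0 := congrFun hc' 0
    have ei := congrFun hc' i
    simp [q0, hp01.1] at e0
    simp [hpi] at ei
    rw [hc, ei.resolve_right hqi, e0]
  have hw0 : w ≠ 0 := by rintro rfl; simp at hw
  have hw1 : w - 1 ≠ 0 := fun e => by
    rw [sub_eq_zero.1 e] at hw
    exact one_ne_zero (α := F4) (by linear_combination hw - h2)
  have hcube : w ^ 3 = 1 := cube hF4 hw0
  have hsp : ∀ x : Fin 6 → F4, H x p = 0 → act g x = lam • x := by
    intro x hx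
    have b1 := hone ![0, 0, 1, 1, 0, 0] (by simp [H, Cfsg.hermForm, Fin.sum_univ_six]; linear_combination h2)
      rfl rfl ⟨2, hp01.2.2.1, by simp⟩
    have b2 := hone ![0, 0, 1, w, 0, 0]
      (by simp [H, Cfsg.hermForm, Fin.sum_univ_six]; linear_combination h2 + hcube) rfl rfl
      ⟨2, hp01.2.2.1, by simp⟩
    have b3 := hone ![0, 0, 0, 0, 1, 1] (by simp [H, Cfsg.hermForm, Fin.sum_univ_six]; linear_combination h2)
      rfl rfl ⟨4, hp01.2.2.2.2.1, by simp⟩
    have b4 := hone ![0, 0, 0, 0, 1, w]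
      (by simp [H, Cfsg.hermForm, Fin.sum_univ_six]; linear_combination h2 + hcube) rfl rfl
      ⟨4, hp01.2.2.2.2.1, by simp⟩
    have hx01 : x 1 = x 0 := by rw [hperp] at hx; linear_combination hx - x 0 * h2
    have ex : x = x 0 • p + (x 2 - (x 3 - x 2) / (w - 1)) • ![0, 0, 1, 1, 0, 0] +
        ((x 3 - x 2) / (w - 1)) • ![0, 0, 1, w, 0, 0] +
        (x 4 - (x 5 - x 4) / (w - 1)) • ![0, 0, 0, 0, 1, 1] +
        ((x 5 - x 4) / (w - 1)) • ![0, 0, 0, 0, 1, w] := by
      funext i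
      fin_cases i <;> simp [← hpdef, pvec, hx01] <;> field_simp <;> ring
    rw [ex]
    simp only [act_add, act_smul, hlam, b1, b2, b3, b4, smul_add, smul_comm lam]
  have hl0 : lam ≠ 0 := fun e => hp0 (act_injective g (by rw [hlam, e, zero_smul, act_zero]))
  have hl3 : lam ^ 3 = 1 := cube hF4 hl0
  -- the cube fixes the orthogonal
  have hg3 : InU p (g ^ 3) := by
    have hpow : ∀ x, act (g ^ 3) x = act g (act g (act g x)) := fun x => by
      rw [show g ^ 3 = g * (g * g) by simp [pow_succ, mul_assoc], act_mul, act_mul]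
    have key : ∀ x, H x p = 0 → act (g ^ 3) x = x := fun x hx => by
      rw [hpow]
      simp only [hsp x hx, act_smul, smul_smul]
      rw [show lam * lam * lam = 1 by linear_combination hl3, one_smul]
    exact ⟨key p hp, fun x hx => ⟨0, by rw [key x hx, zero_smul, add_zero]⟩⟩
  set h4 := g ^ 4 with hh4
  have h43 : h4 ^ 3 = 1 := by
    rw [hh4, ← pow_mul, show 4 * 3 = 3 * 4 from rfl, pow_mul, hg3.pow_four]
  have hsp4 : ∀ x, H x p = 0 → act h4 x = lam • x := fun x hx => by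
    rw [hh4, show g ^ 4 = g * (g * (g * g)) by simp [pow_succ, mul_assoc], act_mul, act_mul, act_mul]
    simp only [hsp x hx, act_smul, smul_smul]
    congr 1
    linear_combination lam * hl3
  have hx1 : ∀ x, H x p = 1 → act h4 x = lam • x := by
    intro x hx
    have e1 : H (act h4 x) p = lam := by
      have hh := act_iso h4 x p
      rw [hsp4 p hp, h_smul_right, hx] at hh
      linear_combination lam * hh - H (act h4 x) p * hl3
    obtain ⟨v, hv⟩ : ∃ v, v = act h4 x + lam • x := ⟨_, rfl⟩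
    have hvp : H v p = 0 := by
      rw [hv, h_add_left, h_smul_left, e1, hx, mul_one]; exact add_self'' hF4 _
    have e2 : act h4 (act h4 x) = (lam * lam) • x := by
      have := hsp4 v hvp
      rw [hv, act_add, act_smul, smul_add, smul_smul, add_comm (lam • act h4 x)] at this
      exact add_right_cancel this
    have e3 : act h4 (act h4 (act h4 x)) = x := by
      rw [← act_mul, ← act_mul, show h4 * h4 * h4 = h4 ^ 3 by simp [pow_succ, mul_assoc], h43, act_one]
    rw [e2, act_smul] at e3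
    have := congrArg (fun t => lam • t) e3
    simp only [smul_smul] at this
    rwa [show lam * (lam * lam) = 1 by linear_combination hl3, one_smul] at this
  have hall : ∀ x, act h4 x = lam • x := by
    intro x
    obtain ⟨y, hy⟩ : ∃ y : Fin 6 → F4, H y p = 1 := by
      obtain ⟨y, hy, -⟩ := exists_h_one hF4 hp0; exact ⟨y, hy⟩
    obtain ⟨v, hv⟩ : ∃ v, v = x + H x p • y := ⟨_, rfl⟩
    have hvp : H v p = 0 := by
      rw [hv, h_add_left, h_smul_left, hy, mul_one]; exact add_self'' hF4 _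
    have ex : x = v + H x p • y := by rw [hv, add_assoc, vadd_self hF4, add_zero]
    rw [ex, act_add, act_smul, hsp4 v hvp, hx1 y hy, smul_add, smul_comm lam]
  have hcen : h4 ∈ Subgroup.center ↥(Cfsg.SU 6 F4 2) :=
    Subgroup.mem_center_iff.2 fun m => act_ext fun x => by
      rw [act_mul, act_mul, hall, hall, act_smul]
  have h4' : cj k u ^ 4 = 1 := by
    rw [← hgu, ← QuotientGroup.mk_pow, QuotientGroup.eq_one_iff]; exact hcen
  have hd : orderOf (cj k u) ∣ 4 := orderOf_dvd_of_pow_eq_one h4'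
  refine orderOf_eq_one_iff.1 (Nat.eq_one_of_dvd_coprimes (a := 4) ?_ hd dvd_rfl)
  exact Nat.Coprime.symm ((Nat.coprime_two_right.2 ho').pow_right 2)

end Cfsg.Agent.M22Trans
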